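/-
Integral combinations of characters with cyclotomic values, and the auxiliary class function of
Knörr's criterion attached to a coprime action.
-/
import Cfsg.Agent.DegreeGraph.RootField
import Cfsg.Agent.Chars.Orth
import Cfsg.Agent.Chars.Linear
import Mathlib.RepresentationTheory.Character

set_option autoImplicit false
set_option linter.unusedSectionVars false

namespace Cfsg.Agent.Knorr2

open Cfsg Cfsg.Agent
open scoped ComplexConjugate

universe u

variable {K : Type u} [Group K] [Fintype K]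

/-- The field of the roots of unity of order `|K| p`. -/
noncomputable abbrev L (K : Type u) (p : ℕ) : IntermediateField ℚ ℂ :=
  DegreeGraph.rootField (Nat.card K * p)

theorem isIntegral_natCast (n : ℕ) : IsIntegral ℤ (n : ℂ) := by
  simpa using (isIntegral_algebraMap (R := ℤ) (A := ℂ) (x := (n : ℤ)))

theorem isIntegral_conj {z : ℂ} (h : IsIntegral ℤ z) : IsIntegral ℤ (conj z) :=
  map_isIntegral_int (starRingEnd ℂ) h

/-- Conjugation commutes with every embedding of the field of roots of unity. -/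
theorem conj_mem_rootField {N : ℕ} (hN : N ≠ 0) {z : ℂ} (hz : z ∈ DegreeGraph.rootField N) :
    ∃ h : conj z ∈ DegreeGraph.rootField N, ∀ σ : DegreeGraph.rootField N →ₐ[ℚ] ℂ,
      σ ⟨conj z, h⟩ = conj (σ ⟨z, hz⟩) := by
  induction hz using IntermediateField.adjoin_induction with
  | mem x hx =>
    rw [Set.mem_singleton_iff] at hx
    subst hx
    have hω := Complex.isPrimitiveRoot_exp N hN
    have hinv : conj (Complex.exp (2 * Real.pi * Complex.I / N)) =
        (Complex.exp (2 * Real.pi * Complex.I / N))⁻¹ :=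
      (Complex.inv_eq_conj (hω.norm'_eq_one hN)).symm
    have h1 : ((Complex.exp (2 * Real.pi * Complex.I / N))⁻¹) ^ N = 1 := by
      rw [inv_pow, hω.pow_eq_one, inv_one]
    refine ⟨hinv ▸ DegreeGraph.mem_rootField hN h1, fun σ => ?_⟩
    obtain ⟨j, -, hj⟩ := DegreeGraph.exists_pow_rootField hN σ
    have e1 : σ ⟨conj (Complex.exp (2 * Real.pi * Complex.I / N)),
        hinv ▸ DegreeGraph.mem_rootField hN h1⟩ =
        ((Complex.exp (2 * Real.pi * Complex.I / N))⁻¹) ^ j := by
      rw [← hj _ h1]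
      exact congrArg σ (Subtype.ext hinv)
    rw [e1, hj _ hω.pow_eq_one, map_pow, hinv]
  | algebraMap x =>
    have e : conj ((algebraMap ℚ ℂ) x) = (algebraMap ℚ ℂ) x := by simp
    refine ⟨by rw [e]; exact IntermediateField.algebraMap_mem _ x, fun σ => ?_⟩
    rw [show (⟨conj ((algebraMap ℚ ℂ) x), _⟩ : DegreeGraph.rootField N) =
        algebraMap ℚ (DegreeGraph.rootField N) x from Subtype.ext e, AlgHom.commutes,
      show (⟨(algebraMap ℚ ℂ) x, _⟩ : DegreeGraph.rootField N) =
        algebraMap ℚ (DegreeGraph.rootField N) x from rfl, AlgHom.commutes, e]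
  | add x y hx hy ihx ihy =>
    obtain ⟨h1, e1⟩ := ihx
    obtain ⟨h2, e2⟩ := ihy
    refine ⟨map_add conj x y ▸ add_mem h1 h2, fun σ => ?_⟩
    rw [show (⟨conj (x + y), _⟩ : DegreeGraph.rootField N) = ⟨conj x, h1⟩ + ⟨conj y, h2⟩ from
        Subtype.ext (map_add conj x y), map_add, e1, e2,
      show (⟨x + y, _⟩ : DegreeGraph.rootField N) = ⟨x, hx⟩ + ⟨y, hy⟩ from rfl, map_add, map_add]
  | inv x hx ihx =>
    obtain ⟨h1, e1⟩ := ihx
    refine ⟨map_inv₀ conj x ▸ inv_mem h1, fun σ => ?_⟩
    rw [show (⟨conj x⁻¹, _⟩ : DegreeGraph.rootField N) = (⟨conj x, h1⟩ : DegreeGraph.rootField N)⁻¹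
        from Subtype.ext (map_inv₀ conj x), map_inv₀, e1,
      show (⟨x⁻¹, _⟩ : DegreeGraph.rootField N) = (⟨x, hx⟩ : DegreeGraph.rootField N)⁻¹ from rfl,
      map_inv₀, map_inv₀]
  | mul x y hx hy ihx ihy =>
    obtain ⟨h1, e1⟩ := ihx
    obtain ⟨h2, e2⟩ := ihy
    refine ⟨map_mul conj x y ▸ mul_mem h1 h2, fun σ => ?_⟩
    rw [show (⟨conj (x * y), _⟩ : DegreeGraph.rootField N) = ⟨conj x, h1⟩ * ⟨conj y, h2⟩ from
        Subtype.ext (map_mul conj x y), map_mul, e1, e2,
      show (⟨x * y, _⟩ : DegreeGraph.rootField N) = ⟨x, hx⟩ * ⟨y, hy⟩ from rfl, map_mul, map_mul]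

theorem conj_mem_L {p : ℕ} (hp : p ≠ 0) {z : ℂ} (hz : z ∈ L K p) : conj z ∈ L K p :=
  (conj_mem_rootField (Nat.mul_ne_zero Nat.card_pos.ne' hp) hz).1

/-- Character values lie in every field of roots of unity of order divisible by the group order. -/
theorem value_mem_rootField {G : Type*} [Group G] [Finite G] {N : ℕ} (hN : N ≠ 0)
    (hd : Nat.card G ∣ N) {χ : G → ℂ} (hχ : IsCharacter G χ) (g : G) :
    χ g ∈ DegreeGraph.rootField N := by
  obtain ⟨c, hc⟩ := DegreeGraph.isCharacter_exists_mult hχ g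
  rw [← pow_one g, hc 1]
  refine sum_mem fun i _ => mul_mem (natCast_mem _ _) (pow_mem (DegreeGraph.mem_rootField hN ?_) _)
  obtain ⟨m, hm⟩ := hd
  rw [hm, pow_mul, DegreeGraph.isPrimitiveRoot_rootG.pow_eq_one, one_pow]

/-- An integral combination of characters with values in the cyclotomic field. -/
structure IC (p : ℕ) (f : K → ℂ) : Prop where
  isClass : IsClassFunction K f
  coeff : ∀ χ : K → ℂ, IsCharacter K χ → IsIntegral ℤ (classInner f χ)
  mem : ∀ g, f g ∈ L K p

variable {p : ℕ}

theorem IC.isIntegral_apply {f : K → ℂ} (hf : IC p f) (g : K) : IsIntegral ℤ (f g) := by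
  rw [Chars.eq_sum_classInner hf.isClass, Finset.sum_apply]
  exact IsIntegral.sum _ fun χ _ =>
    (hf.coeff _ (Chars.irr_isCharacter χ)).mul (DegreeGraph.isIntegral_value (Chars.irr_isCharacter χ) g)

theorem IC.of_isCharacter (hp : p ≠ 0) {f : K → ℂ} (hf : IsCharacter K f) : IC p f where
  isClass := Chars.isClassFunction_of_isCharacter hf
  coeff χ hχ := by
    obtain ⟨n, hn⟩ := Chars.exists_classInner_eq_nat hf hχ
    rw [hn]; exact isIntegral_natCast n
  mem g := value_mem_rootField (Nat.mul_ne_zero Nat.card_pos.ne' hp) (dvd_mul_right _ _) hf g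

theorem IC.one (hp : p ≠ 0) : IC p (fun _ : K => (1 : ℂ)) :=
  IC.of_isCharacter hp Chars.isCharacter_one

theorem IC.add {f g : K → ℂ} (hf : IC p f) (hg : IC p g) : IC p (f + g) where
  isClass a b := by simp only [Pi.add_apply, hf.isClass a b, hg.isClass a b]
  coeff χ hχ := by
    rw [Chars.classInner_add_left]
    exact (hf.coeff χ hχ).add (hg.coeff χ hχ)
  mem a := add_mem (hf.mem a) (hg.mem a)

theorem IC.smul {z : ℂ} (hz : IsIntegral ℤ z) (hzL : z ∈ L K p) {f : K → ℂ} (hf : IC p f) :
    IC p (z • f) where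
  isClass a b := by simp only [Pi.smul_apply, hf.isClass a b]
  coeff χ hχ := by
    rw [Chars.classInner_smul_left]
    exact hz.mul (hf.coeff χ hχ)
  mem a := mul_mem hzL (hf.mem a)

theorem IC.sum {ι : Type*} (hp : p ≠ 0) (s : Finset ι) {f : ι → K → ℂ}
    (h : ∀ i ∈ s, IC p (f i)) : IC p (∑ i ∈ s, f i) := by
  classical
  induction s using Finset.induction_on with
  | empty =>
    rw [Finset.sum_empty]
    simpa using IC.smul (z := 0) isIntegral_zero (zero_mem _) (IC.one (K := K) hp)
  | insert i s hi ih =>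
    rw [Finset.sum_insert hi]
    exact (h i (Finset.mem_insert_self i s)).add (ih fun j hj => h j (Finset.mem_insert_of_mem hj))

theorem IC.mul {f g : K → ℂ} (hf : IC p f) (hg : IC p g) : IC p (f * g) where
  isClass a b := by simp only [Pi.mul_apply, hf.isClass a b, hg.isClass a b]
  coeff χ hχ := by
    have e : classInner (f * g) χ = ∑ ψ : IrrCharacter K, classInner g (ψ : K → ℂ) *
        classInner f (χ * fun x => conj ((ψ : K → ℂ) x)) := by
      simp only [Chars.classInner_def, Pi.mul_apply, map_mul, Complex.conj_conj, Finset.mul_sum]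
      rw [Finset.sum_comm]
      refine Finset.sum_congr rfl fun x _ => ?_
      conv_lhs => rw [congrFun (Chars.eq_sum_classInner hg.isClass) x, Finset.sum_apply]
      simp only [Pi.smul_apply, smul_eq_mul, Chars.classInner_def, Finset.mul_sum, Finset.sum_mul]
      exact Finset.sum_congr rfl fun ψ _ => Finset.sum_congr rfl fun y _ => by ring
    rw [e]
    exact IsIntegral.sum _ fun ψ _ => (hg.coeff _ (Chars.irr_isCharacter ψ)).mul
      (hf.coeff _ (Chars.isCharacter_mul hχ (Chars.isCharacter_star (Chars.irr_isCharacter ψ))))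
  mem a := mul_mem (hf.mem a) (hg.mem a)

theorem IC.conj (hp : p ≠ 0) {f : K → ℂ} (hf : IC p f) : IC p (fun x => starRingEnd ℂ (f x)) where
  isClass a b := by simp only [hf.isClass a b]
  coeff χ hχ := by
    have e : classInner (fun x => starRingEnd ℂ (f x)) χ =
        starRingEnd ℂ (classInner f (fun x => starRingEnd ℂ (χ x))) := by
      simp [Chars.classInner_def, map_sum]
    rw [e]
    exact isIntegral_conj (hf.coeff _ (Chars.isCharacter_star hχ))
  mem a := conj_mem_L hp (hf.mem a)

/-- Division by a natural number prime to the group order. -/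
theorem IC.of_natCast_mul {f : K → ℂ} {n : ℕ} (hn0 : n ≠ 0) (hn : n.Coprime (Nat.card K))
    (hint : ∀ g, IsIntegral ℤ (f g)) (h : IC p ((n : ℂ) • f)) : IC p f where
  isClass a b := by
    have := h.isClass a b
    simpa [hn0] using this
  coeff χ hχ := by
    obtain ⟨s, t, hst⟩ := Nat.Coprime.cast (R := ℤ) hn
    have h1 := h.coeff χ hχ
    rw [Chars.classInner_smul_left] at h1
    have h2 : IsIntegral ℤ ((Nat.card K : ℂ) * classInner f χ) := by
      rw [Chars.classInner_def, ← mul_assoc, mul_inv_cancel₀ Chars.card_ne_zero, one_mul]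
      exact IsIntegral.sum _ fun g _ =>
        (hint g).mul (isIntegral_conj (DegreeGraph.isIntegral_value hχ g))
    have e : classInner f χ = (s : ℂ) * ((n : ℂ) * classInner f χ) +
        (t : ℂ) * ((Nat.card K : ℂ) * classInner f χ) := by
      rw [← mul_assoc, ← mul_assoc, ← add_mul]
      have : ((s * (n : ℤ) + t * (Nat.card K : ℤ) : ℤ) : ℂ) = 1 := by rw [hst]; simp
      push_cast at this
      rw [this, one_mul]
    rw [e]
    exact ((isIntegral_algebraMap (R := ℤ) (x := s)).mul h1).add
      ((isIntegral_algebraMap (R := ℤ) (x := t)).mul h2)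
  mem a := by
    have h1 := h.mem a
    simp only [Pi.smul_apply, smul_eq_mul] at h1
    have h2 := mul_mem (inv_mem (natCast_mem (L K p) n)) h1
    rwa [← mul_assoc, inv_mul_cancel₀ (Nat.cast_ne_zero.mpr hn0), one_mul] at h2

/-- A function with finitely many values has a multiple which is constant. -/
theorem exists_mul_eq_prod (hp : p ≠ 0) {π : K → ℕ} (hπ : IC p (fun c => (π c : ℂ))) (s : Finset ℕ) :
    ∃ g : K → ℂ, IC p g ∧ ∀ c, π c ∈ s → g c * π c = ((∏ v ∈ s, v : ℕ) : ℂ) := by
  classical
  induction s using Finset.induction_on with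
  | empty => exact ⟨fun _ => 1, IC.one hp, fun c h => by simp at h⟩
  | insert v s hv ih =>
    obtain ⟨g, hg, hgs⟩ := ih
    have hcast : ∀ n : ℕ, IC p ((n : ℂ) • fun _ : K => (1 : ℂ)) := fun n =>
      (IC.one hp).smul (isIntegral_natCast n) (natCast_mem _ n)
    refine ⟨((v : ℂ) • g) + (((∏ w ∈ s, w : ℕ) : ℂ) • (fun _ => (1 : ℂ)) +
      (-1 : ℂ) • (g * fun c => (π c : ℂ))),
      (hg.smul (isIntegral_natCast v) (natCast_mem _ v)).add ((hcast _).add
        ((hg.mul hπ).smul isIntegral_one.neg (neg_mem (one_mem _)))), fun c hc => ?_⟩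
    simp only [Pi.add_apply, Pi.smul_apply, Pi.mul_apply, smul_eq_mul]
    rw [Finset.prod_insert hv]
    rcases Finset.mem_insert.mp hc with h | h
    · rw [h]; push_cast; ring
    · have := hgs c h
      push_cast at this ⊢
      linear_combination ((v : ℂ) - (π c : ℂ)) * this

end Cfsg.Agent.Knorr2
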