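/-
Knörr's bound on the number of classes from an auxiliary class function of a point centraliser.
-/
import Cfsg.Agent.Knorr2.Basic
import Cfsg.Agent.DegreeGraph.GaussDelta
import Cfsg.Agent.Chars2.SmallDegree
import Cfsg.Agent.Chars.Eigen
import Mathlib.GroupTheory.Complement
import Mathlib.GroupTheory.NoncommCoprod
import Mathlib.Data.Nat.ModEq

set_option autoImplicit false
set_option linter.unusedSectionVars false
set_option linter.style.haveILetI false

namespace Cfsg.Agent.Knorr2

open Cfsg Cfsg.Agent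
open scoped ComplexConjugate

universe u

/-- The scalar of a central element is a root of unity. -/
theorem central_scalar_pow {P : Type*} [Group P] [Fintype P] {Ψ : P → ℂ} (hΨ : IsIrrCharacter P Ψ)
    {z : P} (hz : z ∈ Subgroup.center P) (n : ℕ) : (Ψ z / Ψ 1) ^ n = Ψ (z ^ n) / Ψ 1 := by
  induction n with
  | zero => rw [pow_zero, pow_zero, div_self (Chars.irr_apply_one_ne_zero hΨ)]
  | succ n ih =>
    rw [pow_succ', pow_succ', Chars2.central_mul hΨ hz, ih]
    ring

/-- Translates of characters by a commuting element of prime order. -/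
theorem ic_translate {X : Type*} [Group X] [Finite X] {K : Subgroup X} [Fintype K] {p : ℕ}
    (hp : p ≠ 0) {w : X} (hwp : w ^ p = 1) (hcw : ∀ c : K, Commute (c : X) w) {χ : X → ℂ}
    (hχ : IsCharacter X χ) : IC p (fun c : K => χ ((c : X) * w)) := by
  classical
  let φ : K × Subgroup.zpowers w →* X :=
    MonoidHom.noncommCoprod K.subtype (Subgroup.zpowers w).subtype fun c u => by
      obtain ⟨i, hi⟩ := Subgroup.mem_zpowers_iff.mp u.2
      simpa [← hi] using (hcw c).zpow_right i
  let w' : Subgroup.zpowers w := ⟨w, Subgroup.mem_zpowers w⟩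
  haveI := Fintype.ofFinite (K × Subgroup.zpowers w)
  obtain ⟨m, -, hm⟩ := Chars.exists_eq_sum_nsmul (Chars.isCharacter_comp hχ φ)
  have hz : ((1 : K), w') ∈ Subgroup.center (K × Subgroup.zpowers w) := by
    refine Subgroup.mem_center_iff.mpr fun x => Prod.ext (by simp) (Subtype.ext ?_)
    obtain ⟨i, hi⟩ := Subgroup.mem_zpowers_iff.mp x.2.2
    show (x.2 : X) * w = w * x.2
    rw [← hi]
    exact (Commute.self_zpow w i).symm.eq
  have e : (fun c : K => χ ((c : X) * w)) = ∑ Ψ : IrrCharacter (K × Subgroup.zpowers w),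
      (m Ψ : ℂ) • ((Ψ.1 (1, w') / Ψ.1 1) • fun c : K => Ψ.1 (c, 1)) := by
    funext c
    have h := congrFun hm (c, w')
    simp only [Function.comp_apply, Finset.sum_apply, Pi.smul_apply] at h
    rw [Finset.sum_apply]
    show χ (φ (c, w')) = _
    rw [h]
    refine Finset.sum_congr rfl fun Ψ _ => ?_
    have h1 := Chars2.central_mul Ψ.2 hz ((c : K), (1 : Subgroup.zpowers w))
    rw [show ((1 : K), w') * (c, (1 : Subgroup.zpowers w)) = (c, w') by simp] at h1
    simp only [nsmul_eq_mul, h1, Pi.smul_apply, smul_eq_mul]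
    ring
  rw [e]
  refine IC.sum hp _ fun Ψ _ => IC.smul (isIntegral_natCast _) (natCast_mem _ _) ?_
  have hroot : (Ψ.1 (1, w') / Ψ.1 1) ^ p = 1 := by
    rw [central_scalar_pow Ψ.2 hz, show ((1 : K), w') ^ p = 1 from
      Prod.ext (one_pow _) (Subtype.ext (by simpa using hwp)),
      div_self (Chars.irr_apply_one_ne_zero Ψ.2)]
  refine IC.smul (IsIntegral.of_pow (Nat.pos_of_ne_zero hp) (by rw [hroot]; exact isIntegral_one))
    (DegreeGraph.mem_rootField (Nat.mul_ne_zero Nat.card_pos.ne' hp)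
      (by rw [mul_comm, pow_mul, hroot, one_pow])) ?_
  exact IC.of_isCharacter hp (Chars.isCharacter_comp (Chars.irr_isCharacter Ψ)
    (MonoidHom.inl K (Subgroup.zpowers w)))

/-- The sum of the centraliser orders. -/
theorem sum_card_centralizer (K : Type u) [Group K] [Fintype K] :
    ∑ c : K, (Nat.card (Subgroup.centralizer ({c} : Set K)) : ℂ) =
      (Nat.card K : ℂ) * Nat.card (ConjClasses K) := by
  have h : ∀ c : K, (Nat.card (Subgroup.centralizer ({c} : Set K)) : ℂ) =
      ∑ ψ : IrrCharacter K, ψ.1 c * conj (ψ.1 c) := fun c => by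
    rw [Chars.column_orth c c, if_pos (IsConj.refl _)]
  simp only [h]
  rw [Finset.sum_comm, ← Chars.card_irr_eq_card_conjClasses, Nat.card_eq_fintype_card (α := IrrCharacter K)]
  have h1 : ∀ ψ : IrrCharacter K, ∑ c, ψ.1 c * conj (ψ.1 c) = (Nat.card K : ℂ) := fun ψ => by
    have := Chars.classInner_self_irr ψ.2
    rwa [Chars.classInner_def, inv_mul_eq_div, div_eq_one_iff_eq Chars.card_ne_zero] at this
  simp only [h1, Finset.sum_const, Finset.card_univ, nsmul_eq_mul]
  ring

/-- Knörr's counting argument. -/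
theorem card_conjClasses_le_of_delta {X : Type u} [Group X] [Finite X] {p : ℕ} [Fact p.Prime]
    (V : Subgroup X) [V.Normal] (hVexp : ∀ v ∈ V, v ^ p = 1) (hidx : ¬ p ∣ V.index)
    (hVab : ∀ a ∈ V, ∀ b ∈ V, a * b = b * a) (G : Subgroup X)
    (hGV : Subgroup.IsComplement' V G) (w : X) (hw : w ∈ V) (K : Subgroup X) [Fintype K]
    (hKG : K ≤ G) (hK : ∀ g, g ∈ G → g * w = w * g → g ∈ K) (hKw : ∀ c : K, Commute (c : X) w)
    (M : Ideal AlgInt) [M.IsMaximal] (hpM : (p : AlgInt) ∈ M) (δ : K → ℂ) (hδ : IC p δ)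
    (hδ1 : ∃ y : ℂ, IsIntegral ℤ y ∧ y * δ 1 = 1) (hδM : ∀ c : K, c ≠ 1 → DegreeGraph.InM M (δ c))
    (hδb : ∀ c : K, ∃ r : ℚ, δ c * conj (δ c) = (r : ℂ) ∧
      r * Nat.card (V ⊓ Subgroup.centralizer ({(c : X)} : Set X) : Subgroup X) ≤ Nat.card V) :
    Nat.card (ConjClasses X) ≤ Nat.card V := by
  classical
  haveI := Fintype.ofFinite X
  have hp := (Fact.out : p.Prime)
  have hwp : w ^ p = 1 := hVexp w hw
  have hpK : ¬ p ∣ Nat.card K := fun h => hidx (by
    rw [hGV.symm.index_eq_card]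
    exact h.trans (Subgroup.card_dvd_of_le hKG))
  haveI := DegreeGraph.finiteDimensional_rootField
    (N := Nat.card K * p) (Nat.mul_ne_zero Nat.card_pos.ne' hp.ne_zero)
  set f : IrrCharacter X → K → ℂ := fun χ => δ * fun c : K => χ.1 ((c : X) * w) with hfdef
  have hf : ∀ χ, IC p (f χ) := fun χ =>
    hδ.mul (ic_translate hp.ne_zero hwp hKw (Chars.irr_isCharacter χ))
  set a : IrrCharacter X × IrrCharacter K → ℂ := fun i => classInner (f i.1) i.2.1 with hadef
  have hint : ∀ i, IsIntegral ℤ (a i) := fun i => (hf i.1).coeff _ (Chars.irr_isCharacter i.2)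
  have hmem : ∀ i, a i ∈ L K p := fun i => by
    rw [hadef]
    simp only [Chars.classInner_def]
    exact mul_mem (inv_mem (natCast_mem _ _)) (sum_mem fun g _ => mul_mem ((hf i.1).mem g)
      (conj_mem_L hp.ne_zero (value_mem_rootField (Nat.mul_ne_zero Nat.card_pos.ne' hp.ne_zero)
        (dvd_mul_right _ _) (Chars.irr_isCharacter i.2) g)))
  -- non-vanishing
  have hne : ∀ i, a i ≠ 0 := by
    rintro ⟨χ, ψ⟩ h0
    have hsum : ∑ c : K, f χ c * conj (ψ.1 c) = 0 := by
      simp only [hadef, Chars.classInner_def] at h0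
      exact (mul_eq_zero.mp h0).resolve_left (inv_ne_zero Chars.card_ne_zero)
    rw [Finset.sum_eq_add_sum_sdiff_singleton_of_mem (Finset.mem_univ 1)] at hsum
    have hrest : DegreeGraph.InM M (∑ c ∈ (Finset.univ \ {1} : Finset K), f χ c * conj (ψ.1 c)) := by
      refine DegreeGraph.InM.sum _ _ fun c hc => ?_
      simp only [hfdef, Pi.mul_apply, mul_assoc]
      exact (hδM c fun h => (Finset.mem_sdiff.mp hc).2 (Finset.mem_singleton.mpr h)).mul_right
        ((DegreeGraph.isIntegral_value (Chars.irr_isCharacter χ) _).mul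
          (isIntegral_conj (DegreeGraph.isIntegral_value (Chars.irr_isCharacter ψ) _)))
    have h1 : DegreeGraph.InM M (f χ 1 * conj (ψ.1 1)) := by
      rw [eq_neg_of_add_eq_zero_left hsum]; exact hrest.neg
    obtain ⟨y, hy, hy1⟩ := hδ1
    obtain ⟨d, hd, hdvd⟩ := DegreeGraph.exists_degree_dvd_index V hVab χ.2
    obtain ⟨e, -, he, hedvd⟩ := Chars.irr_degree_dvd_card ψ.2
    simp only [hfdef, Pi.mul_apply, Subgroup.coe_one, one_mul,
      he, map_natCast] at h1
    have h2 : DegreeGraph.InM M (χ.1 w * e) := by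
      have := h1.mul hy
      rwa [← mul_assoc, ← mul_assoc, hy1, one_mul] at this
    obtain ⟨b, -, hb⟩ := (Nat.dvd_prime_pow hp).mp
      (show orderOf w ∣ p ^ 1 by rw [pow_one]; exact orderOf_dvd_of_pow_eq_one hwp)
    obtain ⟨x, hx, hxv⟩ := DegreeGraph.exists_congr_degree M hpM (Chars.irr_isCharacter χ) hb
    have h3 : DegreeGraph.InM M ((d : ℂ) * e) := by
      have := h2.add ((DegreeGraph.InM.mul_right (isIntegral_natCast e) ⟨x, hx, hxv⟩).neg)
      rwa [show χ.1 w * (e : ℂ) + -((χ.1 w - χ.1 1) * e) = d * e by rw [hd]; ring] at this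
    obtain ⟨z, hz, hz'⟩ := h3
    have hzM : ((d * e : ℕ) : AlgInt) ∈ M := by
      rwa [show ((d * e : ℕ) : AlgInt) = z from Subtype.ext (by rw [hz']; simp)]
    have hcop : p.Coprime (d * e) := Nat.Coprime.mul_right
      ((Nat.Prime.coprime_iff_not_dvd hp).mpr fun h => hidx (h.trans hdvd))
      ((Nat.Prime.coprime_iff_not_dvd hp).mpr fun h => hpK (h.trans hedvd))
    obtain ⟨s, t, hst⟩ := Nat.Coprime.cast (R := ℤ) hcop
    refine (Ideal.IsMaximal.ne_top ‹M.IsMaximal›) ((Ideal.eq_top_iff_one M).mpr ?_)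
    have h4 : ((s * (p : ℤ) + t * ((d * e : ℕ) : ℤ) : ℤ) : AlgInt) = 1 := by rw [hst]; simp
    rw [← h4, Int.cast_add, Int.cast_mul, Int.cast_mul, Int.cast_natCast, Int.cast_natCast]
    exact M.add_mem (M.mul_mem_left _ hpM) (M.mul_mem_left _ hzM)
  -- the square sum is rational and small
  choose r hr hrb using hδb
  set R : ℚ := (Nat.card K : ℚ)⁻¹ *
    ∑ c : K, r c * Nat.card (Subgroup.centralizer ({(c : X) * w} : Set X)) with hR
  have hsq : ∑ i, a i * conj (a i) = (R : ℂ) := by
    have h1 : ∀ χ, ∑ ψ : IrrCharacter K, a (χ, ψ) * conj (a (χ, ψ)) = classInner (f χ) (f χ) := by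
      intro χ
      conv_rhs => arg 1; rw [Chars.eq_sum_classInner (hf χ).isClass]
      rw [Chars.classInner_sum_left]
      refine Finset.sum_congr rfl fun ψ _ => ?_
      rw [Chars.classInner_smul_left, hadef, Chars.classInner_conj_symm]
    rw [Fintype.sum_prod_type]
    simp only [h1]
    simp only [Chars.classInner_def, hfdef, Pi.mul_apply, map_mul]
    rw [← Finset.mul_sum, Finset.sum_comm, hR]
    push_cast
    congr 1
    refine Finset.sum_congr rfl fun c _ => ?_
    rw [← hr c]
    have h2 := Chars.column_orth ((c : X) * w) ((c : X) * w)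
    rw [if_pos (IsConj.refl _)] at h2
    rw [← h2, Finset.mul_sum]
    exact Finset.sum_congr rfl fun χ _ => by ring
  have hcent : ∀ c : K, Nat.card (Subgroup.centralizer ({(c : X) * w} : Set X)) ≤
      Nat.card (Subgroup.centralizer ({c} : Set K)) *
        Nat.card (V ⊓ Subgroup.centralizer ({(c : X)} : Set X) : Subgroup X) := by
    intro c
    obtain ⟨k, hk1, hk2⟩ := Nat.chineseRemainder
      ((Nat.Prime.coprime_iff_not_dvd hp).mpr hpK) 1 0
    have hwk : ((c : X) * w) ^ k = w := by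
      have hc0 : (c : X) ^ k = 1 := by
        rw [← SubmonoidClass.coe_pow, orderOf_dvd_iff_pow_eq_one.mp
          ((orderOf_dvd_natCard c).trans (Nat.modEq_zero_iff_dvd.mp hk2)), Subgroup.coe_one]
      have hw1 : w ^ k = w ^ 1 := by
        rw [← pow_mod_orderOf w k, ← pow_mod_orderOf w 1]
        congr 1
        exact Nat.ModEq.of_dvd (orderOf_dvd_of_pow_eq_one hwp) hk1
      rw [(hKw c).mul_pow, hc0, one_mul, hw1, pow_one]
    have key : ∀ v ∈ V, ∀ g ∈ G, Commute (v * g) ((c : X) * w) →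
        g ∈ K ∧ Commute g (c : X) ∧ Commute v (c : X) := by
      intro v hv g hg hx
      have hxw : Commute (v * g) w := by
        have := hx.pow_right k
        rwa [hwk] at this
      have hxc : Commute (v * g) (c : X) := by
        have := hx.mul_right hxw.inv_right
        rwa [mul_inv_cancel_right] at this
      have hgw : Commute g w := by
        have := ((show Commute v w from hVab _ hv _ hw).inv_left).mul_left hxw
        rwa [inv_mul_cancel_left] at this
      have hgc : g * c * ((c : X) * g)⁻¹ = v⁻¹ * ((c : X) * v * (c : X)⁻¹) := by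
        rw [eq_inv_mul_iff_mul_eq]
        calc v * (g * c * ((c : X) * g)⁻¹) = v * g * c * ((c : X) * g)⁻¹ := by
              simp only [mul_assoc]
          _ = (c : X) * (v * g) * ((c : X) * g)⁻¹ := by rw [hxc.eq]
          _ = (c : X) * v * (c : X)⁻¹ := by group
      have hcG : (c : X) ∈ G := hKG c.2
      have h1 : g * c * ((c : X) * g)⁻¹ = 1 := Subgroup.disjoint_def.mp hGV.disjoint
        (hgc ▸ V.mul_mem (V.inv_mem hv) (Subgroup.Normal.conj_mem ‹V.Normal› v hv _))
        (G.mul_mem (G.mul_mem hg hcG) (G.inv_mem (G.mul_mem hcG hg)))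
      have hgc' : Commute g (c : X) := mul_inv_eq_one.mp h1
      refine ⟨hK g hg hgw.eq, hgc', ?_⟩
      have := hxc.mul_left hgc'.inv_left
      rwa [mul_inv_cancel_right] at this
    have hdec : ∀ x : ↥(Subgroup.centralizer ({(c : X) * w} : Set X)),
        ((hGV.equiv (x : X)).2 : X) ∈ K ∧ Commute ((hGV.equiv (x : X)).2 : X) (c : X) ∧
          Commute ((hGV.equiv (x : X)).1 : X) (c : X) := by
      intro x
      refine key _ (hGV.equiv (x : X)).1.2 _ (hGV.equiv (x : X)).2.2 ?_
      rw [hGV.equiv_fst_mul_equiv_snd]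
      exact Subgroup.mem_centralizer_singleton_iff.mp x.2
    rw [← Nat.card_prod]
    refine Nat.card_le_card_of_injective (fun x =>
      ((⟨⟨_, (hdec x).1⟩, Subgroup.mem_centralizer_singleton_iff.mpr (Subtype.ext (hdec x).2.1.eq)⟩ :
          Subgroup.centralizer ({c} : Set K)),
        (⟨_, (hGV.equiv (x : X)).1.2, Subgroup.mem_centralizer_singleton_iff.mpr (hdec x).2.2.eq⟩ :
          (V ⊓ Subgroup.centralizer ({(c : X)} : Set X) : Subgroup X)))) ?_
    intro x y h
    simp only [Prod.mk.injEq, Subtype.mk.injEq] at h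
    exact Subtype.ext (hGV.equiv.injective (Prod.ext (Subtype.ext (congrArg Subtype.val h.2 :)) (Subtype.ext h.1)))
  have hr0 : ∀ c, 0 ≤ r c := fun c => by
    have h := hr c
    rw [Complex.mul_conj'] at h
    have h1 : ‖δ c‖ ^ 2 = (r c : ℝ) := Complex.ofReal_injective (by push_cast; exact h)
    have h2 : (0 : ℝ) ≤ (r c : ℝ) := h1 ▸ by positivity
    exact_mod_cast h2
  have hRle : R ≤ (Nat.card V : ℚ) * Nat.card (ConjClasses K) := by
    have h1 : ∀ c : K, r c * Nat.card (Subgroup.centralizer ({(c : X) * w} : Set X)) ≤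
        (Nat.card (Subgroup.centralizer ({c} : Set K)) : ℚ) * Nat.card V := by
      intro c
      calc r c * Nat.card (Subgroup.centralizer ({(c : X) * w} : Set X))
          ≤ r c * ((Nat.card (Subgroup.centralizer ({c} : Set K)) : ℚ) *
              Nat.card (V ⊓ Subgroup.centralizer ({(c : X)} : Set X) : Subgroup X)) :=
            mul_le_mul_of_nonneg_left (by exact_mod_cast hcent c) (hr0 c)
        _ = (Nat.card (Subgroup.centralizer ({c} : Set K)) : ℚ) *
              (r c * Nat.card (V ⊓ Subgroup.centralizer ({(c : X)} : Set X) : Subgroup X)) := by ring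
        _ ≤ _ := mul_le_mul_of_nonneg_left (hrb c) (Nat.cast_nonneg _)
    have h2 : ∑ c : K, Nat.card (Subgroup.centralizer ({c} : Set K)) =
        Nat.card K * Nat.card (ConjClasses K) := by
      have := sum_card_centralizer K
      exact_mod_cast this
    rw [hR, inv_mul_le_iff₀ (by exact_mod_cast Nat.card_pos)]
    refine (Finset.sum_le_sum fun c _ => h1 c).trans (le_of_eq ?_)
    rw [← Finset.sum_mul, ← Nat.cast_sum, h2, Nat.cast_mul]
    ring
  have hbound : ∀ σ : L K p →ₐ[ℚ] ℂ,
      ∑ i, ‖σ ⟨a i, hmem i⟩‖ ^ 2 ≤ (Nat.card V : ℝ) * Nat.card (ConjClasses K) := by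
    intro σ
    have hcj : ∀ i, σ ⟨conj (a i), conj_mem_L hp.ne_zero (hmem i)⟩ = conj (σ ⟨a i, hmem i⟩) :=
      fun i => (conj_mem_rootField (Nat.mul_ne_zero Nat.card_pos.ne' hp.ne_zero) (hmem i)).2 σ
    have h1 : ∑ i, σ ⟨a i, hmem i⟩ * conj (σ ⟨a i, hmem i⟩) = (R : ℂ) := by
      simp only [← hcj, ← map_mul, ← map_sum]
      rw [show (∑ i, (⟨a i, hmem i⟩ : L K p) * ⟨conj (a i), conj_mem_L hp.ne_zero (hmem i)⟩) =
        algebraMap ℚ (L K p) R from Subtype.ext (by simpa using hsq), AlgHom.commutes]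
      simp
    have h2 : (∑ i, ‖σ ⟨a i, hmem i⟩‖ ^ 2 : ℝ) = (R : ℝ) := by
      apply Complex.ofReal_injective
      push_cast
      rw [← h1]
      exact Finset.sum_congr rfl fun i _ => (Complex.mul_conj' _).symm
    rw [h2]
    exact_mod_cast hRle
  have hmain := DegreeGraph.card_le_of_embeddings (L K p) (fun i => (⟨a i, hmem i⟩ : L K p))
    (fun i h => hne i (congrArg Subtype.val h)) hint _ hbound
  rw [Fintype.card_prod, ← Nat.card_eq_fintype_card, ← Nat.card_eq_fintype_card,
    Chars.card_irr_eq_card_conjClasses, Chars.card_irr_eq_card_conjClasses, Nat.cast_mul] at hmain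
  exact_mod_cast le_of_mul_le_mul_right hmain (Nat.cast_pos.mpr Nat.card_pos)

end Cfsg.Agent.Knorr2
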