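/-
Auxiliary class functions of invariant submodules of a coprime module, and how to build them from a
function of absolute value the square root of the number of fixed points.
-/
import Cfsg.Agent.Knorr2.Basic
import Cfsg.Agent.PermGroups.OrbitalAlgebra
import Mathlib.FieldTheory.Finiteness
import Mathlib.LinearAlgebra.BilinearMap
import Mathlib.Analysis.SpecialFunctions.Complex.CircleAddChar

set_option autoImplicit false
set_option linter.unusedSectionVars false
set_option linter.style.haveILetI false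

namespace Cfsg.Agent.Knorr2

open Cfsg Cfsg.Agent
open scoped ComplexConjugate

universe u v

variable {K : Type u} [Group K] [Fintype K] {p : ℕ} [Fact p.Prime]
  {A : Type v} [AddCommGroup A] [Module (ZMod p) A] [Finite A]

/-- A submodule invariant under the whole group. -/
def Inv (ρ : Representation (ZMod p) K A) (S : Submodule (ZMod p) A) : Prop :=
  ∀ c : K, ∀ u ∈ S, ρ c u ∈ S

/-- The points of a submodule fixed by a group element. -/
def fixIn (ρ : Representation (ZMod p) K A) (S : Submodule (ZMod p) A) (c : K) :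
    Submodule (ZMod p) A := S ⊓ LinearMap.eqLocus (ρ c) LinearMap.id

theorem mem_fixIn {ρ : Representation (ZMod p) K A} {S : Submodule (ZMod p) A} {c : K} {u : A} :
    u ∈ fixIn ρ S c ↔ u ∈ S ∧ ρ c u = u := Iff.rfl

/-- There is an auxiliary class function for the submodule. -/
def GoodSub (ρ : Representation (ZMod p) K A) (S : Submodule (ZMod p) A) : Prop :=
  ∃ δ : K → ℂ, IC p δ ∧ (∀ c, δ c * conj (δ c) * Nat.card (fixIn ρ S c) = Nat.card S) ∧
    ∀ c, ∃ ε : ℂ, IsIntegral ℤ ε ∧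
      δ c ^ 4 * (Nat.card (fixIn ρ S c) : ℂ) ^ 2 = ε * (Nat.card S : ℂ) ^ 2

variable (ρ : Representation (ZMod p) K A)

theorem rep_mul (c d : K) (u : A) : ρ (c * d) u = ρ c (ρ d u) := by rw [map_mul]; rfl

theorem rep_one_apply (u : A) : ρ 1 u = u := by rw [map_one]; rfl

theorem rep_inv_apply (c : K) (u : A) : ρ c (ρ c⁻¹ u) = u := by
  rw [← rep_mul, mul_inv_cancel, rep_one_apply]

theorem isCharacter_fix {Ω : Type*} [Finite Ω] [MulAction K Ω] :
    IsCharacter K (fun c => (Nat.card (MulAction.fixedBy Ω c) : ℂ)) := by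
  haveI := Fintype.ofFinite Ω
  rw [PermGroups.fixFun_eq]
  exact Chars.isCharacter_of_rep _

/-- Counting fixed points in an invariant set gives a combination of characters. -/
theorem ic_card_fix (hp : p ≠ 0) {s : Set A} (hs : ∀ c, ∀ u ∈ s, ρ c u ∈ s) :
    IC p (fun c => (Nat.card {u : A // u ∈ s ∧ ρ c u = u} : ℂ)) := by
  letI : MulAction K s :=
    { smul := fun c u => ⟨ρ c u, hs c u u.2⟩
      one_smul := fun u => Subtype.ext (rep_one_apply ρ u)
      mul_smul := fun c d u => Subtype.ext (rep_mul ρ c d u) }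
  have e : (fun c => (Nat.card {u : A // u ∈ s ∧ ρ c u = u} : ℂ)) =
      fun c => (Nat.card (MulAction.fixedBy s c) : ℂ) := funext fun c => by
    congr 1
    exact Nat.card_congr
      { toFun := fun u => ⟨⟨u.1, u.2.1⟩, Subtype.ext u.2.2⟩
        invFun := fun u => ⟨u.1.1, u.1.2, congrArg Subtype.val u.2⟩
        left_inv := fun u => rfl
        right_inv := fun u => rfl }
  rw [e]
  exact IC.of_isCharacter hp isCharacter_fix

theorem card_eq_pow (S : Submodule (ZMod p) A) : ∃ n : ℕ, Nat.card S = p ^ n :=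
  ⟨_, by rw [Module.natCard_eq_pow_finrank (K := ZMod p), Nat.card_zmod]⟩

theorem card_fixIn_dvd (S : Submodule (ZMod p) A) (c : K) :
    Nat.card (fixIn ρ S c) ∣ Nat.card S :=
  AddSubgroup.card_dvd_of_le (H := (fixIn ρ S c).toAddSubgroup) (K := S.toAddSubgroup) fun _ h => h.1

theorem card_fixIn_ne (S : Submodule (ZMod p) A) (c : K) :
    (Nat.card (fixIn ρ S c) : ℂ) ≠ 0 := Nat.cast_ne_zero.mpr Nat.card_pos.ne'

theorem fixIn_one (S : Submodule (ZMod p) A) : fixIn ρ S 1 = S :=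
  inf_eq_left.mpr fun u _ => rep_one_apply ρ u

theorem natCast_orderOf_ne_zero (hpK : ¬ p ∣ Nat.card K) (c : K) : (orderOf c : ZMod p) ≠ 0 := by
  rw [Ne, ZMod.natCast_eq_zero_iff]
  exact fun h => hpK (h.trans (orderOf_dvd_natCard c))

/-- A nondegenerate invariant form stays nondegenerate on fixed points. -/
theorem nondeg_fix (hpK : ¬ p ∣ Nat.card K) {B : A →ₗ[ZMod p] A →ₗ[ZMod p] ZMod p}
    (hB : ∀ c x y, B (ρ c x) (ρ c y) = B x y) {S : Submodule (ZMod p) A} (hS : Inv ρ S)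
    (hnd : ∀ u ∈ S, (∀ w ∈ S, B u w = 0) → u = 0) (c : K) :
    ∀ u ∈ fixIn ρ S c, (∀ w ∈ fixIn ρ S c, B u w = 0) → u = 0 := by
  intro u hu h
  refine hnd u hu.1 fun y hy => ?_
  set n := orderOf c
  have hfix : ∀ i, ρ (c ^ i) u = u := by
    intro i
    induction i with
    | zero => rw [pow_zero, rep_one_apply]
    | succ i ih => rw [pow_succ, rep_mul, (mem_fixIn.mp hu).2, ih]
  have hy' : ∑ i ∈ Finset.range n, ρ (c ^ i) y ∈ fixIn ρ S c := by
    refine mem_fixIn.mpr ⟨sum_mem fun i _ => hS _ _ hy, ?_⟩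
    rw [map_sum]
    have e : ∀ i, ρ c (ρ (c ^ i) y) = ρ (c ^ (i + 1)) y := fun i => by rw [← rep_mul, ← pow_succ']
    simp only [e]
    refine add_right_cancel ((Finset.sum_range_succ' (fun i => ρ (c ^ i) y) n).symm.trans ?_)
    rw [Finset.sum_range_succ, pow_orderOf_eq_one, pow_zero]
  have h1 := h _ hy'
  rw [map_sum] at h1
  have e2 : ∀ i ∈ Finset.range n, B u (ρ (c ^ i) y) = B u y := fun i _ => by
    conv_lhs => rw [← hfix i]
    exact hB _ _ _
  rw [Finset.sum_congr rfl e2, Finset.sum_const, Finset.card_range, nsmul_eq_mul] at h1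
  exact (mul_eq_zero.mp h1).resolve_left (natCast_orderOf_ne_zero hpK c)

/-- Two disjoint invariant submodules. -/
theorem GoodSub.sup {S R : Submodule (ZMod p) A} (hS : Inv ρ S) (hR : Inv ρ R)
    (hd : Disjoint S R) (h1 : GoodSub ρ S) (h2 : GoodSub ρ R) : GoodSub ρ (S ⊔ R) := by
  have hcard : Nat.card (S ⊔ R : Submodule (ZMod p) A) = Nat.card S * Nat.card R := by
    rw [← Nat.card_prod]
    refine (Nat.card_congr (Equiv.ofBijective
      (fun x : S × R => (⟨(x.1 : A) + x.2, Submodule.add_mem_sup x.1.2 x.2.2⟩ :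
        (S ⊔ R : Submodule (ZMod p) A))) ⟨?_, ?_⟩)).symm
    · rintro ⟨⟨a, ha⟩, b, hb⟩ ⟨⟨a', ha'⟩, b', hb'⟩ h
      have h' : a + b = a' + b' := congrArg Subtype.val h
      have e : a - a' = b' - b := by rw [sub_eq_sub_iff_add_eq_add, h', add_comm]
      have h0 := Submodule.disjoint_def.mp hd _ (sub_mem ha ha') (e ▸ sub_mem hb' hb)
      obtain rfl := sub_eq_zero.mp h0
      obtain rfl := add_left_cancel h'
      rfl
    · rintro ⟨x, hx⟩
      obtain ⟨a, ha, b, hb, rfl⟩ := Submodule.mem_sup.mp hx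
      exact ⟨(⟨a, ha⟩, ⟨b, hb⟩), rfl⟩
  have hfix : ∀ c, Nat.card (fixIn ρ (S ⊔ R) c) =
      Nat.card (fixIn ρ S c) * Nat.card (fixIn ρ R c) := by
    intro c
    rw [← Nat.card_prod]
    refine (Nat.card_congr (Equiv.ofBijective
      (fun x : fixIn ρ S c × fixIn ρ R c => (⟨(x.1 : A) + x.2,
        Submodule.add_mem_sup x.1.2.1 x.2.2.1, by
          show ρ c _ = _
          rw [map_add, x.1.2.2, x.2.2.2]; rfl⟩ : fixIn ρ (S ⊔ R) c)) ⟨?_, ?_⟩)).symm
    · rintro ⟨⟨a, ha⟩, b, hb⟩ ⟨⟨a', ha'⟩, b', hb'⟩ h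
      have h' : a + b = a' + b' := congrArg Subtype.val h
      have e : a - a' = b' - b := by rw [sub_eq_sub_iff_add_eq_add, h', add_comm]
      have h0 := Submodule.disjoint_def.mp hd _ (sub_mem ha.1 ha'.1) (e ▸ sub_mem hb'.1 hb.1)
      obtain rfl := sub_eq_zero.mp h0
      obtain rfl := add_left_cancel h'
      rfl
    · rintro ⟨x, hx, hxc⟩
      obtain ⟨a, ha, b, hb, rfl⟩ := Submodule.mem_sup.mp hx
      have hxc' : ρ c a + ρ c b = a + b := by rw [← map_add]; exact hxc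
      have e : ρ c a - a = b - ρ c b := by rw [sub_eq_sub_iff_add_eq_add, hxc', add_comm]
      have h0 := Submodule.disjoint_def.mp hd _ (sub_mem (hS c a ha) ha)
        (e ▸ sub_mem hb (hR c b hb))
      exact ⟨(⟨a, ha, sub_eq_zero.mp h0⟩, ⟨b, hb, (sub_eq_zero.mp (e ▸ h0)).symm⟩), rfl⟩
  obtain ⟨δ, hδ, hδn, hδf⟩ := h1
  obtain ⟨γ, hγ, hγn, hγf⟩ := h2
  refine ⟨δ * γ, hδ.mul hγ, fun c => ?_, fun c => ?_⟩
  · simp only [Pi.mul_apply, map_mul, hfix, hcard, Nat.cast_mul, ← hδn c, ← hγn c]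
    ring
  · obtain ⟨ε, hε, e1⟩ := hδf c
    obtain ⟨η, hη, e2⟩ := hγf c
    refine ⟨ε * η, hε.mul hη, ?_⟩
    simp only [Pi.mul_apply, hfix, hcard, Nat.cast_mul, mul_pow]
    linear_combination (δ c ^ 4 * (Nat.card (fixIn ρ S c) : ℂ) ^ 2) * e2 +
      (η * (Nat.card R : ℂ) ^ 2) * e1

theorem GoodSub.bot (hp : p ≠ 0) : GoodSub ρ ⊥ := by
  have h : ∀ c, fixIn ρ (⊥ : Submodule (ZMod p) A) c = ⊥ := fun c => bot_inf_eq _
  refine ⟨fun _ => 1, IC.one hp, fun c => ?_, fun c => ⟨1, isIntegral_one, ?_⟩⟩ <;> simp [h]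

/-- Division of the conjugate of a square root of the fixed point count by that count. -/
theorem GoodSub.of_theta (hpK : ¬ p ∣ Nat.card K) {S : Submodule (ZMod p) A} (hS : Inv ρ S)
    {θ : K → ℂ} (hθ : IC p θ) (hn : ∀ c, θ c * conj (θ c) = Nat.card (fixIn ρ S c))
    (hf : ∀ c, ∃ x : ℂ, IsIntegral ℤ x ∧ θ c ^ 4 = x * (Nat.card (fixIn ρ S c) : ℂ) ^ 2) :
    GoodSub ρ S := by
  classical
  have hp := (Fact.out : p.Prime)
  set π : K → ℕ := fun c => Nat.card (fixIn ρ S c) with hπdef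
  have hπ : IC p (fun c => (π c : ℂ)) := ic_card_fix ρ hp.ne_zero (s := (S : Set A)) hS
  obtain ⟨g, hg, hgs⟩ := exists_mul_eq_prod hp.ne_zero hπ (Finset.univ.image π)
  set N : ℕ := ∏ v ∈ Finset.univ.image π, v with hN
  have hN0 : N ≠ 0 := by
    refine Finset.prod_ne_zero_iff.mpr fun v hv => ?_
    obtain ⟨c, -, rfl⟩ := Finset.mem_image.mp hv
    exact Nat.card_pos.ne'
  have hNK : N.Coprime (Nat.card K) := by
    refine Nat.Coprime.prod_left fun v hv => ?_
    obtain ⟨c, -, rfl⟩ := Finset.mem_image.mp hv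
    obtain ⟨n, hn'⟩ := card_eq_pow (fixIn ρ S c)
    rw [hπdef]
    simp only [hn']
    exact Nat.Coprime.pow_left _ ((Nat.Prime.coprime_iff_not_dvd hp).mpr hpK)
  set G : ℂ := θ 1 with hG
  have hGn : G * conj G = Nat.card S := by rw [hG, hn, fixIn_one]
  obtain ⟨y, hy, hGy⟩ := hf 1
  rw [fixIn_one] at hGy
  have hδn : ∀ c, G * conj (θ c) / π c * conj (G * conj (θ c) / π c) * (π c : ℂ) = Nat.card S := by
    intro c
    have h0 : (π c : ℂ) ≠ 0 := card_fixIn_ne ρ S c
    simp only [map_mul, map_div₀, map_natCast, Complex.conj_conj]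
    field_simp
    linear_combination (θ c * conj (θ c)) * hGn + (Nat.card S : ℂ) * hn c
  have hδf : ∀ c, ∃ ε : ℂ, IsIntegral ℤ ε ∧
      (G * conj (θ c) / π c) ^ 4 * (π c : ℂ) ^ 2 = ε * (Nat.card S : ℂ) ^ 2 := by
    intro c
    obtain ⟨x, hx, hθx⟩ := hf c
    have h0 : (π c : ℂ) ≠ 0 := card_fixIn_ne ρ S c
    refine ⟨y * conj x, hy.mul (isIntegral_conj hx), ?_⟩
    have h2 := congrArg (starRingEnd ℂ) hθx
    simp only [map_mul, map_pow, map_natCast] at h2
    rw [div_pow, mul_pow, hG, hGy, h2]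
    field_simp
    rfl
  have hint : ∀ c, IsIntegral ℤ (G * conj (θ c) / π c) := by
    intro c
    obtain ⟨ε, hε, he⟩ := hδf c
    obtain ⟨m, hm⟩ := card_fixIn_dvd ρ S c
    refine IsIntegral.of_pow (by norm_num : 0 < 4) ?_
    have h0 : (π c : ℂ) ≠ 0 := card_fixIn_ne ρ S c
    rw [show (G * conj (θ c) / π c) ^ 4 = ε * (m : ℂ) ^ 2 from ?_]
    · exact hε.mul ((isIntegral_natCast m).pow 2)
    · refine mul_right_cancel₀ (pow_ne_zero 2 h0) ?_
      rw [he, hm, Nat.cast_mul]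
      ring
  refine ⟨fun c => G * conj (θ c) / π c, IC.of_natCast_mul hN0 hNK hint ?_, hδn, hδf⟩
  have e : ((N : ℂ) • fun c => G * conj (θ c) / π c) = (G • fun c => conj (θ c)) * g := by
    funext c
    have h0 : (π c : ℂ) ≠ 0 := card_fixIn_ne ρ S c
    have := hgs c (Finset.mem_image_of_mem π (Finset.mem_univ c))
    simp only [Pi.smul_apply, Pi.mul_apply, smul_eq_mul]
    rw [← this]
    field_simp
  rw [e]
  exact ((hθ.conj hp.ne_zero).smul (hθ.isIntegral_apply 1) (hθ.mem 1)).mul hg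

section AddChar

/-- The standard additive character. -/
noncomputable abbrev ec (p : ℕ) [NeZero p] : AddChar (ZMod p) ℂ := ZMod.stdAddChar

theorem ec_pow (t : ZMod p) : ec p t ^ p = 1 := by
  rw [← AddChar.map_nsmul_eq_pow, nsmul_eq_mul, ZMod.natCast_self, zero_mul,
    AddChar.map_zero_eq_one]

theorem ec_eq_one {t : ZMod p} : ec p t = 1 ↔ t = 0 :=
  ⟨fun h => ZMod.injective_stdAddChar (h.trans (AddChar.map_zero_eq_one _).symm),
    fun h => by rw [h, AddChar.map_zero_eq_one]⟩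

theorem ec_conj (t : ZMod p) : conj (ec p t) = ec p (-t) := by
  rw [AddChar.map_neg_eq_inv, Complex.inv_eq_conj
    (Complex.norm_eq_one_of_pow_eq_one (ec_pow t) (NeZero.ne p))]

theorem ec_mem (t : ZMod p) : ec p t ∈ L K p :=
  DegreeGraph.mem_rootField (Nat.mul_ne_zero Nat.card_pos.ne' (NeZero.ne p))
    (by rw [mul_comm, pow_mul, ec_pow, one_pow])

theorem isIntegral_ec (t : ZMod p) : IsIntegral ℤ (ec p t) :=
  IsIntegral.of_pow (Nat.pos_of_ne_zero (NeZero.ne p)) (by rw [ec_pow]; exact isIntegral_one)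

/-- A nonzero functional sums to zero under the additive character. -/
theorem sum_ec {B : Type*} [AddCommGroup B] [Fintype B] (f : B →+ ZMod p) {b : B} (hb : f b ≠ 0) :
    ∑ x, ec p (f x) = 0 := by
  have h : ∑ x, ec p (f x) = ec p (f b) * ∑ x, ec p (f x) := by
    rw [Finset.mul_sum]
    refine (Fintype.sum_equiv (Equiv.addLeft b) _ _ fun x => ?_).symm
    simp [AddChar.map_add_eq_mul]
  rcases eq_or_ne (∑ x, ec p (f x)) 0 with h0 | h0
  · exact h0
  · exact absurd (ec_eq_one.mp ((mul_eq_right₀ h0).mp h.symm)) hb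

end AddChar

end Cfsg.Agent.Knorr2
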