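/-
The auxiliary class function of an orthogonal module, from Gauss sums over the fixed points.
-/
import Cfsg.Agent.Knorr2.Good
import Mathlib.FieldTheory.Finite.Basic

set_option autoImplicit false
set_option linter.unusedSectionVars false
set_option linter.style.haveILetI false

namespace Cfsg.Agent.Knorr2

open Cfsg Cfsg.Agent
open scoped ComplexConjugate

universe u v

variable {K : Type u} [Group K] [Fintype K] {p : ℕ} [Fact p.Prime]
  {A : Type v} [AddCommGroup A] [Module (ZMod p) A] [Finite A]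

/-- The quadratic Gauss sum of a form on a submodule. -/
noncomputable def gaussSum' (B : A →ₗ[ZMod p] A →ₗ[ZMod p] ZMod p) (S : Submodule (ZMod p) A) :
    ℂ :=
  haveI : Fintype S := Fintype.ofFinite S
  ∑ u : S, ec p (B u u)

variable {B : A →ₗ[ZMod p] A →ₗ[ZMod p] ZMod p}

theorem gaussSum'_mul_conj (hp2 : p ≠ 2) (hsymm : ∀ x y, B x y = B y x)
    {S : Submodule (ZMod p) A} (hnd : ∀ u ∈ S, (∀ w ∈ S, B u w = 0) → u = 0) :
    gaussSum' B S * conj (gaussSum' B S) = Nat.card S := by
  classical
  haveI : Fintype S := Fintype.ofFinite S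
  have h2 : (2 : ZMod p) ≠ 0 := Ring.two_ne_zero (by rwa [ZMod.ringChar_zmod_n])
  have e : gaussSum' B S = ∑ u : S, ec p (B u u) :=
    Finset.sum_congr (Finset.ext fun _ => by simp) fun _ _ => rfl
  have h1 : gaussSum' B S * conj (gaussSum' B S) =
      ∑ d : S, ec p (B d d) * ∑ v : S, ec p (2 * B d v) := by
    rw [e, map_sum, Finset.sum_mul_sum, Finset.sum_comm]
    simp only [Finset.mul_sum]
    rw [Finset.sum_comm (γ := S) (f := fun d v : S => ec p (B d d) * ec p (2 * B d v))]
    refine Finset.sum_congr rfl fun v _ => ?_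
    refine Fintype.sum_equiv (Equiv.subRight v) _ _ fun u => ?_
    rw [ec_conj, ← AddChar.map_add_eq_mul, ← AddChar.map_add_eq_mul]
    congr 1
    simp only [Equiv.subRight_apply, AddSubgroupClass.coe_sub, map_sub, LinearMap.sub_apply,
      hsymm (v : A) (u : A)]
    ring
  rw [h1, Finset.sum_eq_single (0 : S)]
  · simp [Nat.card_eq_fintype_card]
  · intro d _ hd
    obtain ⟨w, hw, hwne⟩ : ∃ w ∈ S, B d w ≠ 0 := by
      by_contra h
      push Not at h
      exact hd (Subtype.ext (hnd _ d.2 h))
    have h3 := sum_ec (p := p)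
      (((2 : ZMod p) • (B (d : A)).comp S.subtype).toAddMonoidHom) (b := ⟨w, hw⟩)
      (by simpa using ⟨h2, hwne⟩)
    simp only [LinearMap.toAddMonoidHom_coe, LinearMap.smul_apply, LinearMap.comp_apply,
      Submodule.subtype_apply, smul_eq_mul] at h3
    rw [h3, mul_zero]
  · intro h
    exact absurd (Finset.mem_univ _) h

theorem gaussSum'_sq (S : Submodule (ZMod p) A) :
    gaussSum' B S ^ 2 = conj (gaussSum' B S) ^ 2 := by
  classical
  haveI : Fintype S := Fintype.ofFinite S
  obtain ⟨a, b, hab⟩ := ZMod.sq_add_sq p (-1)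
  have e : gaussSum' B S = ∑ u : S, ec p (B u u) :=
    Finset.sum_congr (Finset.ext fun _ => by simp) fun _ _ => rfl
  have hconj : conj (gaussSum' B S) = ∑ u : S, ec p (-B u u) := by
    rw [e, map_sum]
    exact Finset.sum_congr rfl fun u _ => ec_conj _
  let f : S × S → S × S := fun x => (a • x.1 + b • x.2, b • x.1 - a • x.2)
  have hf : ∀ x, f (f x) = -x := by
    intro x
    refine Prod.ext (Subtype.ext ?_) (Subtype.ext ?_) <;>
      simp only [f, Prod.fst_neg, Prod.snd_neg, Submodule.coe_add, AddSubgroupClass.coe_sub,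
        Submodule.coe_smul, NegMemClass.coe_neg, smul_add, smul_sub, smul_smul] <;>
      rw [← neg_one_smul (ZMod p), ← hab] <;> simp only [add_smul, sq] <;>
      rw [mul_comm b a] <;> abel
  have hbij : Function.Bijective f := Finite.injective_iff_bijective.mp fun x y h =>
    neg_injective (by rw [← hf x, ← hf y, h])
  have h1 : ∀ x : S × S, ec p (B (f x).1 (f x).1) * ec p (B (f x).2 (f x).2) =
      ec p (-B x.1 x.1) * ec p (-B x.2 x.2) := by
    intro x
    rw [← AddChar.map_add_eq_mul, ← AddChar.map_add_eq_mul]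
    congr 1
    simp only [f, Submodule.coe_add, AddSubgroupClass.coe_sub, Submodule.coe_smul, map_add, map_sub,
      map_smul, LinearMap.add_apply, LinearMap.sub_apply, LinearMap.smul_apply, smul_eq_mul]
    linear_combination (B (x.1 : A) x.1 + B (x.2 : A) x.2) * hab
  rw [sq, sq, hconj, e, Finset.sum_mul_sum, Finset.sum_mul_sum, ← Finset.sum_product',
    ← Finset.sum_product', Finset.univ_product_univ]
  exact ((Fintype.sum_bijective f hbij _ _ fun x => rfl).symm.trans
    (Finset.sum_congr rfl fun x _ => h1 x))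

variable (ρ : Representation (ZMod p) K A)

/-- An orthogonal submodule has an auxiliary class function. -/
theorem GoodSub.of_symm (hp2 : p ≠ 2) (hpK : ¬ p ∣ Nat.card K)
    (hsymm : ∀ x y, B x y = B y x) (hB : ∀ c x y, B (ρ c x) (ρ c y) = B x y)
    {S : Submodule (ZMod p) A} (hS : Inv ρ S)
    (hnd : ∀ u ∈ S, (∀ w ∈ S, B u w = 0) → u = 0) : GoodSub ρ S := by
  classical
  have hp := (Fact.out : p.Prime)
  haveI : Fintype A := Fintype.ofFinite A
  refine GoodSub.of_theta ρ hpK hS (θ := fun c => gaussSum' B (fixIn ρ S c)) ?_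
    (fun c => gaussSum'_mul_conj hp2 hsymm (nondeg_fix ρ hpK hB hS hnd c)) fun c => ⟨1, isIntegral_one, ?_⟩
  · have e : (fun c => gaussSum' B (fixIn ρ S c)) = ∑ t : ZMod p, ec p t • fun c =>
        (Nat.card {u : A // u ∈ {v : A | v ∈ S ∧ B v v = t} ∧ ρ c u = u} : ℂ) := by
      funext c
      haveI : Fintype (fixIn ρ S c) := Fintype.ofFinite _
      have e1 : gaussSum' B (fixIn ρ S c) = ∑ u : fixIn ρ S c, ec p (B u u) :=
        Finset.sum_congr (Finset.ext fun _ => by simp) fun _ _ => rfl
      rw [e1, Finset.sum_apply, ← Finset.sum_fiberwise Finset.univ (fun u : fixIn ρ S c => B u u)]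
      refine Finset.sum_congr rfl fun t _ => ?_
      rw [Finset.sum_congr rfl (g := fun _ => ec p t) fun u hu => by
        rw [(Finset.mem_filter.mp hu).2], Finset.sum_const, nsmul_eq_mul, Pi.smul_apply,
        smul_eq_mul, mul_comm]
      congr 2
      rw [← Fintype.card_subtype, Nat.card_eq_fintype_card]
      refine Fintype.card_congr
        { toFun := fun u => ⟨(u.1 : A), ⟨u.1.2.1, u.2⟩, u.1.2.2⟩
          invFun := fun u => ⟨⟨u.1, mem_fixIn.mpr ⟨u.2.1.1, u.2.2⟩⟩, u.2.1.2⟩
          left_inv := fun u => rfl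
          right_inv := fun u => rfl }
    rw [e]
    refine IC.sum hp.ne_zero _ fun t _ => IC.smul (isIntegral_ec t) (ec_mem t) ?_
    exact ic_card_fix ρ hp.ne_zero fun c u hu => ⟨hS c u hu.1, (hB c u u).trans hu.2⟩
  · rw [one_mul, ← gaussSum'_mul_conj hp2 hsymm (nondeg_fix ρ hpK hB hS hnd c), mul_pow,
      ← gaussSum'_sq]
    ring

end Cfsg.Agent.Knorr2
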