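/-
Heisenberg groups of bilinear forms over a prime field, and their irreducible characters which are
nontrivial on the centre.
-/
import Cfsg.Agent.Knorr2.Good
import Cfsg.Agent.Chars2.SmallDegree

set_option autoImplicit false
set_option linter.unusedSectionVars false
set_option linter.style.haveILetI false

namespace Cfsg.Agent.Knorr2

open Cfsg Cfsg.Agent
open scoped ComplexConjugate

universe v

variable {p : ℕ} [Fact p.Prime] {A : Type v} [AddCommGroup A] [Module (ZMod p) A]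

/-- The central extension of `A` by the prime field with cocycle `b`. -/
@[ext] structure Heis (b : A →ₗ[ZMod p] A →ₗ[ZMod p] ZMod p) : Type v where
  /-- The vector part. -/
  v : A
  /-- The central part. -/
  z : ZMod p

variable {b : A →ₗ[ZMod p] A →ₗ[ZMod p] ZMod p}

namespace Heis

instance instHeisGroup : Group (Heis b) where
  mul e f := ⟨e.v + f.v, e.z + f.z + b e.v f.v⟩
  one := ⟨0, 0⟩
  inv e := ⟨-e.v, -e.z + b e.v e.v⟩
  mul_assoc e f g := by
    refine Heis.ext (add_assoc _ _ _) ?_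
    show e.z + f.z + b e.v f.v + g.z + b (e.v + f.v) g.v =
      e.z + (f.z + g.z + b f.v g.v) + b e.v (f.v + g.v)
    simp only [map_add, LinearMap.add_apply]
    ring
  one_mul e := by
    refine Heis.ext (zero_add _) ?_
    show 0 + e.z + b 0 e.v = e.z
    simp
  mul_one e := by
    refine Heis.ext (add_zero _) ?_
    show e.z + 0 + b e.v 0 = e.z
    simp
  inv_mul_cancel e := by
    refine Heis.ext (neg_add_cancel _) ?_
    show -e.z + b e.v e.v + e.z + b (-e.v) e.v = 0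
    simp only [map_neg, LinearMap.neg_apply]
    ring

theorem mk_mul (x y : A) (s t : ZMod p) :
    (⟨x, s⟩ : Heis b) * ⟨y, t⟩ = ⟨x + y, s + t + b x y⟩ := rfl

theorem one_def : (1 : Heis b) = ⟨0, 0⟩ := rfl

theorem mk_zero_mul (t s : ZMod p) (y : A) : (⟨0, t⟩ : Heis b) * ⟨y, s⟩ = ⟨y, t + s⟩ := by
  rw [mk_mul]; simp

theorem mk_mul_zero (t s : ZMod p) (y : A) : (⟨y, s⟩ : Heis b) * ⟨0, t⟩ = ⟨y, s + t⟩ := by
  rw [mk_mul]; simp

theorem mem_center (t : ZMod p) : (⟨0, t⟩ : Heis b) ∈ Subgroup.center (Heis b) := by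
  refine Subgroup.mem_center_iff.mpr fun e => ?_
  obtain ⟨y, s⟩ := e
  rw [mk_mul_zero, mk_zero_mul, add_comm]

theorem conj_eq (y x : A) (s : ZMod p) :
    (⟨y, 0⟩ : Heis b) * ⟨x, s⟩ * (⟨y, 0⟩ : Heis b)⁻¹ = ⟨0, b y x - b x y⟩ * ⟨x, s⟩ := by
  rw [mul_inv_eq_iff_eq_mul, mk_mul, mk_zero_mul, mk_mul]
  exact Heis.ext (add_comm _ _) (by ring)

/-- The underlying set. -/
def equivProd : Heis b ≃ A × ZMod p where
  toFun e := (e.v, e.z)
  invFun x := ⟨x.1, x.2⟩
  left_inv _ := rfl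
  right_inv _ := rfl

instance instHeisFinite [Finite A] : Finite (Heis b) := Finite.of_equiv _ equivProd.symm

theorem card [Finite A] : Nat.card (Heis b) = Nat.card A * p := by
  rw [Nat.card_congr equivProd, Nat.card_prod, Nat.card_zmod]

section Chars

variable [Finite A]

/-- The centre acts through an additive character. -/
theorem exists_central_addChar {χ : Heis b → ℂ} (hχ : IsIrrCharacter (Heis b) χ) :
    ∃ ψ : AddChar (ZMod p) ℂ, ∀ t e, χ (⟨0, t⟩ * e) = ψ t * χ e := by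
  haveI := Fintype.ofFinite (Heis b)
  have h1 := Chars.irr_apply_one_ne_zero hχ
  refine ⟨⟨fun t => χ ⟨0, t⟩ / χ 1, ?_, fun s t => ?_⟩, fun t e => ?_⟩
  · rw [← one_def, div_self h1]
  · have := Chars2.central_mul hχ (mem_center (b := b) s) ⟨0, t⟩
    rw [mk_zero_mul] at this
    rw [this]
    field_simp
  · have := Chars2.central_mul hχ (mem_center (b := b) t) e
    rw [this]
    show _ = χ ⟨0, t⟩ / χ 1 * χ e
    ring

theorem exists_alt_eq_one {y0 x : A} (h : b y0 x - b x y0 ≠ 0) :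
    ∃ y : A, (∀ c : A →ₗ[ZMod p] A, c y0 = y0 → c y = y) ∧ b y x - b x y = 1 :=
  ⟨(b y0 x - b x y0)⁻¹ • y0, fun c hc => by rw [map_smul, hc], by
    rw [map_smul, LinearMap.smul_apply, map_smul, smul_eq_mul, smul_eq_mul, ← mul_sub,
      inv_mul_cancel₀ h]⟩

/-- An irreducible character nontrivial on the centre vanishes off it. -/
theorem vanish (hnd : ∀ u : A, (∀ w, b w u - b u w = 0) → u = 0) {χ : Heis b → ℂ}
    (hχ : IsIrrCharacter (Heis b) χ) {ψ : AddChar (ZMod p) ℂ}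
    (hψ : ∀ t e, χ (⟨0, t⟩ * e) = ψ t * χ e) (hne : ψ 1 ≠ 1) (e : Heis b) (he : e.v ≠ 0) :
    χ e = 0 := by
  obtain ⟨y0, hy0⟩ : ∃ y, b y e.v - b e.v y ≠ 0 := by
    by_contra h
    push Not at h
    exact he (hnd _ h)
  obtain ⟨y, -, hy⟩ := exists_alt_eq_one hy0
  have h := Chars.isCharacter_conj_apply (Chars.isCharacter_of_isIrr hχ) (⟨e.v, e.z⟩ : Heis b) ⟨y, 0⟩
  rw [conj_eq, hy, hψ] at h
  exact (mul_left_eq_self₀.mp h).resolve_left hne

theorem apply_one_sq (hnd : ∀ u : A, (∀ w, b w u - b u w = 0) → u = 0) {χ : Heis b → ℂ}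
    (hχ : IsIrrCharacter (Heis b) χ) {ψ : AddChar (ZMod p) ℂ}
    (hψ : ∀ t e, χ (⟨0, t⟩ * e) = ψ t * χ e) (hne : ψ 1 ≠ 1) :
    χ 1 * χ 1 = Nat.card A := by
  classical
  haveI := Fintype.ofFinite (Heis b)
  haveI := Fintype.ofFinite A
  have h1 := Chars.classInner_self_irr hχ
  have h2 : (Nat.card (Heis b) : ℂ) = ∑ e, χ e * conj (χ e) := by
    rw [Chars.classInner_def, inv_mul_eq_div, div_eq_one_iff_eq Chars.card_ne_zero] at h1
    exact h1.symm
  rw [Fintype.sum_equiv equivProd (fun e => χ e * conj (χ e))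
    (fun x => χ ⟨x.1, x.2⟩ * conj (χ ⟨x.1, x.2⟩)) (fun e => rfl), Fintype.sum_prod_type,
    Finset.sum_eq_single (0 : A)] at h2
  · have h3 : ∀ t, χ ⟨0, t⟩ * conj (χ ⟨0, t⟩) = χ 1 * χ 1 := by
      intro t
      have := hψ t 1
      rw [mul_one] at this
      rw [this, map_mul, Chars.irr_apply_one_conj (Chars.isCharacter_of_isIrr hχ)]
      have h4 : ψ t * conj (ψ t) = 1 := by rw [Complex.mul_conj', AddChar.norm_apply]; simp
      linear_combination (χ 1 * χ 1) * h4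
    simp only [h3, Finset.sum_const, Finset.card_univ, ZMod.card, nsmul_eq_mul, card,
      Nat.cast_mul] at h2
    refine mul_left_cancel₀ (Nat.cast_ne_zero.mpr (NeZero.ne p) : (p : ℂ) ≠ 0) ?_
    rw [← h2]; ring
  · intro x _ hx
    exact Finset.sum_eq_zero fun t _ => by rw [vanish hnd hχ hψ hne _ hx, zero_mul]
  · intro h
    exact absurd (Finset.mem_univ _) h

theorem exists_irr : ∃ (χ : Heis b → ℂ) (ψ : AddChar (ZMod p) ℂ), IsIrrCharacter (Heis b) χ ∧
    (∀ t e, χ (⟨0, t⟩ * e) = ψ t * χ e) ∧ ψ 1 ≠ 1 := by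
  classical
  haveI := Fintype.ofFinite (Heis b)
  have hne : (⟨0, 1⟩ : Heis b) ≠ 1 := fun h => one_ne_zero (congrArg Heis.z h : (1 : ZMod p) = 0)
  obtain ⟨χ, hχ⟩ : ∃ χ : IrrCharacter (Heis b), (χ : Heis b → ℂ) ⟨0, 1⟩ ≠ (χ : Heis b → ℂ) 1 := by
    by_contra h
    push Not at h
    have h1 := Chars.column_orth (⟨0, 1⟩ : Heis b) 1
    rw [if_neg (fun hc => hne (isConj_one_left.mp hc))] at h1
    have h2 := Chars.column_orth (1 : Heis b) 1
    rw [if_pos (IsConj.refl _)] at h2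
    simp only [h] at h1
    rw [h1] at h2
    exact Nat.card_pos.ne' (Nat.cast_eq_zero.mp h2.symm)
  obtain ⟨ψ, hψ⟩ := exists_central_addChar χ.2
  refine ⟨χ, ψ, χ.2, hψ, fun h => hχ ?_⟩
  have := hψ 1 1
  rwa [mul_one, h, one_mul] at this

end Chars

end Heis

end Cfsg.Agent.Knorr2
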