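/-
The auxiliary class function of a symplectic module, from the extension to the group of the
irreducible character of the Heisenberg group.
-/
import Cfsg.Agent.Knorr2.Heis
import Cfsg.Agent.Chars.CoprimeExt
import Cfsg.Agent.Chars2.Ramified
import Cfsg.Agent.OddChar.CosetAverage
import Mathlib.GroupTheory.SemidirectProduct
import Mathlib.GroupTheory.NoncommCoprod
import Mathlib.LinearAlgebra.SesquilinearForm.Basic
import Mathlib.LinearAlgebra.Dimension.Free

set_option autoImplicit false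
set_option linter.unusedSectionVars false
set_option linter.style.haveILetI false

namespace Cfsg.Agent.Knorr2

open Cfsg Cfsg.Agent
open scoped ComplexConjugate

universe u v

variable {K : Type u} [Group K] [Fintype K] {p : ℕ} [Fact p.Prime]
  {A : Type v} [AddCommGroup A] [Module (ZMod p) A]
  (ρ : Representation (ZMod p) K A) {b : A →ₗ[ZMod p] A →ₗ[ZMod p] ZMod p}

variable [Finite A]

/-- The action on the Heisenberg group of an invariant cocycle. -/
def heisAct (hb : ∀ c x y, b (ρ c x) (ρ c y) = b x y) : K →* MulAut (Heis b) where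
  toFun c :=
    { toFun := fun e => ⟨ρ c e.v, e.z⟩
      invFun := fun e => ⟨ρ c⁻¹ e.v, e.z⟩
      left_inv := fun e => Heis.ext (by simpa using rep_inv_apply ρ c⁻¹ e.v) rfl
      right_inv := fun e => Heis.ext (rep_inv_apply ρ c e.v) rfl
      map_mul' := fun e f => Heis.ext (map_add _ _ _) (by
        show e.z + f.z + b e.v f.v = e.z + f.z + b (ρ c e.v) (ρ c f.v)
        rw [hb]) }
  map_one' := MulEquiv.ext fun e => Heis.ext (rep_one_apply ρ e.v) rfl
  map_mul' c d := MulEquiv.ext fun e => Heis.ext (rep_mul ρ c d e.v) rfl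

/-- The Weil character of a coprime group of isometries. -/
theorem exists_weil_theta (hpK : ¬ p ∣ Nat.card K) (hb : ∀ c x y, b (ρ c x) (ρ c y) = b x y)
    (hnd : ∀ u : A, (∀ w, b w u - b u w = 0) → u = 0) :
    ∃ θ : K → ℂ, IC p θ ∧ (∀ c, θ c * conj (θ c) = Nat.card (fixIn ρ ⊤ c)) ∧
      ∀ c, ∃ x : ℂ, IsIntegral ℤ x ∧ θ c ^ 4 = x * (Nat.card (fixIn ρ ⊤ c) : ℂ) ^ 2 := by
  classical
  have hp := (Fact.out : p.Prime)
  obtain ⟨χ, ψ, hχ, hψ, hne⟩ := Heis.exists_irr (b := b)
  let φ := heisAct ρ hb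
  let Γ := SemidirectProduct (Heis b) K φ
  haveI : Finite Γ := Finite.of_equiv _ SemidirectProduct.equivProd.symm
  haveI := Fintype.ofFinite Γ
  let ι : Heis b →* Γ := SemidirectProduct.inl
  let κ : K →* Γ := SemidirectProduct.inr
  let N : Subgroup Γ := ι.range
  haveI hN : N.Normal := by
    rw [show N = (SemidirectProduct.rightHom (φ := φ)).ker from
      SemidirectProduct.range_inl_eq_ker_rightHom]
    infer_instance
  let eN : Heis b ≃* N := MonoidHom.ofInjective SemidirectProduct.inl_injective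
  haveI := Fintype.ofFinite N
  haveI := Fintype.ofFinite (Heis b)
  have hswap : ∀ (k : K) (e : Heis b), ι (φ k e) * κ k = κ k * ι e := fun k e => by
    rw [show ι (φ k e) = κ k * ι e * κ k⁻¹ from SemidirectProduct.inl_aut k e, mul_assoc, ← map_mul,
      inv_mul_cancel, map_one, mul_one]
  have hχN : IsIrrCharacter N (χ ∘ eN.symm) := Chars.isIrrCharacter_comp_equiv hχ eN.symm
  have hE : ∀ e, eN.symm ⟨ι e, ⟨e, rfl⟩⟩ = e := fun e => eN.symm_apply_apply e
  have hinv : Chars2.inertiaSub (χ ∘ eN.symm) = ⊤ := by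
    refine Chars2.inertiaSub_eq_top fun g n => ?_
    obtain ⟨e, rfl⟩ : ∃ e, (⟨ι e, ⟨e, rfl⟩⟩ : N) = n := by
      obtain ⟨_, e, rfl⟩ := n; exact ⟨e, rfl⟩
    have hg : g * ι e * g⁻¹ = ι (g.left * φ g.right e * g.left⁻¹) := by
      rw [mul_inv_eq_iff_eq_mul]
      conv_lhs => rw [← SemidirectProduct.inl_left_mul_inr_right g]
      conv_rhs => rhs; rw [← SemidirectProduct.inl_left_mul_inr_right g]
      show ι g.left * κ g.right * ι e =
        ι (g.left * φ g.right e * g.left⁻¹) * (ι g.left * κ g.right)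
      rw [map_mul, map_mul, map_inv, mul_assoc, ← hswap]
      simp only [mul_assoc, inv_mul_cancel_left]
    simp only [Function.comp_apply]
    rw [show (⟨g * ((⟨ι e, ⟨e, rfl⟩⟩ : N) : Γ) * g⁻¹, hN.conj_mem _ (⟨e, rfl⟩) g⟩ : N) =
      ⟨ι (g.left * φ g.right e * g.left⁻¹), ⟨_, rfl⟩⟩ from Subtype.ext hg, hE, hE,
      Chars.isCharacter_conj_apply (Chars.isCharacter_of_isIrr hχ)]
    by_cases he : e.v = 0
    · congr 1
      exact Heis.ext (by show ρ g.right e.v = e.v; rw [he, map_zero]) rfl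
    · rw [Heis.vanish hnd hχ hψ hne _ he, Heis.vanish hnd hχ hψ hne]
      show ρ g.right e.v ≠ 0
      intro h0
      refine he ?_
      have h1 := congrArg (ρ g.right⁻¹) h0
      rwa [map_zero, ← rep_mul, inv_mul_cancel, rep_one_apply] at h1
  have hcardN : Nat.card N = Nat.card A * p := by rw [← Nat.card_congr eN.toEquiv, Heis.card]
  have hindex : N.index = Nat.card K := by
    rw [show N = (SemidirectProduct.rightHom (φ := φ)).ker from
      SemidirectProduct.range_inl_eq_ker_rightHom, Subgroup.index_ker,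
      MonoidHom.range_eq_top.mpr SemidirectProduct.rightHom_surjective, Subgroup.card_top]
  have hcop : (Nat.card N).Coprime (Nat.card K) := by
    obtain ⟨n, hn⟩ := card_eq_pow (⊤ : Submodule (ZMod p) A)
    rw [hcardN, ← Nat.card_congr (Submodule.topEquiv (R := ZMod p) (M := A)).toEquiv, hn, ← pow_succ]
    exact Nat.Coprime.pow_left _ ((Nat.Prime.coprime_iff_not_dvd hp).mpr hpK)
  obtain ⟨ext, hext, hres⟩ := Chars.extends_of_coprime N (hindex ▸ hcop) hχN hinv
  have hresE : ∀ e, ext (ι e) = χ e := fun e => by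
    have := hres ⟨ι e, ⟨e, rfl⟩⟩
    rwa [Function.comp_apply, hE] at this
  have hextc := Chars.isCharacter_of_isIrr hext
  have hcen : ∀ t, ι ⟨0, t⟩ ∈ Subgroup.center Γ := by
    intro t
    refine Subgroup.mem_center_iff.mpr fun g => ?_
    rw [← SemidirectProduct.inl_left_mul_inr_right g]
    have h1 : φ g.right ⟨0, t⟩ = ⟨0, t⟩ := Heis.ext (map_zero _) rfl
    have h2 : ι ⟨0, t⟩ * κ g.right = κ g.right * ι ⟨0, t⟩ := by
      have := hswap g.right ⟨0, t⟩
      rwa [h1] at this
    calc SemidirectProduct.inl g.left * SemidirectProduct.inr g.right * ι ⟨0, t⟩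
        = SemidirectProduct.inl g.left * (ι ⟨0, t⟩ * SemidirectProduct.inr g.right) := by
          rw [mul_assoc, h2]
      _ = ι (g.left * ⟨0, t⟩) * SemidirectProduct.inr g.right := by
          rw [← mul_assoc, map_mul]
      _ = ι ⟨0, t⟩ * (SemidirectProduct.inl g.left * SemidirectProduct.inr g.right) := by
          rw [Subgroup.mem_center_iff.mp (Heis.mem_center t) g.left, map_mul, mul_assoc]
  have hcentral : ∀ t g, ext (ι ⟨0, t⟩ * g) = ψ t * ext g := by
    intro t g
    rw [Chars2.central_mul hext (hcen t), hresE, show ext 1 = χ 1 by rw [← hresE 1, map_one]]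
    have := hψ t 1
    rw [mul_one] at this
    rw [this]
    have := Chars.irr_apply_one_ne_zero hχ
    field_simp
  -- fixed points of `c` commute with it
  have hcomm : ∀ (c : K) (e : Heis b), ρ c e.v = e.v → Commute (κ c) (ι e) := by
    intro c e he
    have h2 := hswap c e
    rw [show φ c e = e from Heis.ext he rfl] at h2
    exact h2.symm
  have hfnd : ∀ (c : K) (x : A), ρ c x = x → x ≠ 0 →
      ∃ y, ρ c y = y ∧ b y x - b x y = 1 := by
    intro c x hx hx0
    have hB : ∀ c x y, (b.flip - b) (ρ c x) (ρ c y) = (b.flip - b) x y := fun c x y => by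
      simp [hb]
    have h := nondeg_fix ρ hpK hB (S := ⊤) (fun _ _ _ => Submodule.mem_top)
      (fun u _ hu => hnd u fun w => by simpa using hu w Submodule.mem_top) c x
      (mem_fixIn.mpr ⟨Submodule.mem_top, hx⟩)
    obtain ⟨y0, hy0, hy0'⟩ : ∃ y ∈ fixIn ρ ⊤ c, b y x - b x y ≠ 0 := by
      by_contra hcon
      push Not at hcon
      exact hx0 (h fun w hw => by simpa using hcon w hw)
    obtain ⟨y, hy, hy1⟩ := Heis.exists_alt_eq_one hy0'
    exact ⟨y, hy (ρ c) (mem_fixIn.mp hy0).2, hy1⟩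
  have hvan : ∀ (c : K) (e : Heis b), ρ c e.v = e.v → e.v ≠ 0 → ext (ι e * κ c) = 0 := by
    intro c e he he0
    obtain ⟨y, hy, hy1⟩ := hfnd c e.v he he0
    have h := Chars.isCharacter_conj_apply hextc (ι e * κ c) (ι ⟨y, 0⟩)
    have e1 : ι ⟨y, 0⟩ * (ι e * κ c) * (ι ⟨y, 0⟩)⁻¹ = ι ⟨0, 1⟩ * (ι e * κ c) := by
      have := hcomm c ⟨y, 0⟩ hy
      calc ι ⟨y, 0⟩ * (ι e * κ c) * (ι ⟨y, 0⟩)⁻¹
          = ι ⟨y, 0⟩ * ι e * (κ c * (ι ⟨y, 0⟩)⁻¹) := by simp only [mul_assoc]
        _ = ι (⟨y, 0⟩ * ⟨e.v, e.z⟩ * (⟨y, 0⟩ : Heis b)⁻¹) * κ c := by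
            rw [this.inv_right.eq, map_mul, map_mul, map_inv]; simp only [mul_assoc]
        _ = _ := by rw [Heis.conj_eq, hy1, map_mul]; simp only [mul_assoc]
    rw [e1, hcentral] at h
    exact (mul_left_eq_self₀.mp h).resolve_left hne
  set θ : K → ℂ := fun c => ext (κ c) with hθdef
  have hcard : ∀ c, Nat.card (fixIn ρ ⊤ c) = Nat.card {x : A // ρ c x = x} := fun c =>
    Nat.card_congr (Equiv.subtypeEquivRight fun x => by simp [mem_fixIn])
  -- the absolute value
  have hnorm : ∀ c, θ c * conj (θ c) = Nat.card (fixIn ρ ⊤ c) := by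
    intro c
    set g := κ c
    have hself : classInner (fun n : N => ext n) (fun n : N => ext n) ≠ 0 := by
      rw [show (fun n : N => ext n) = χ ∘ eN.symm from funext hres, Chars.classInner_self_irr hχN]
      exact one_ne_zero
    obtain ⟨β, hβ, hβT, havg⟩ := (Chars2.cosetAvg_cases (N := N) hext
      (by rw [show (fun n : N => ext n) = χ ∘ eN.symm from funext hres]; exact hχN) hext).1 hself
    have hβ1 : (β : Γ → ℂ) 1 = 1 := by
      have := congrFun hβ 1
      simp only [Pi.mul_apply] at this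
      exact (mul_eq_right₀ (Chars.irr_apply_one_ne_zero hext)).mp this
    obtain ⟨l, hl⟩ := Chars.exists_hom_of_degree_one (Chars.irr_isCharacter β) hβ1
    set F : Γ → ℂ := fun x => ext x * conj (ext x) with hFdef
    have hFc : ∀ x h : Γ, F (h * x * h⁻¹) = F x := fun x h => by
      simp only [hFdef, Chars.isCharacter_conj_apply hextc]
    have havg1 : (Nat.card N : ℂ)⁻¹ * ∑ n : N, F (g * (n : Γ)) = 1 := by
      have e : ∀ n : N, F (g * (n : Γ)) = F ((n : Γ) * g) := fun n => by
        rw [← hFc ((n : Γ) * g) g]; exact congrArg F (by rw [← mul_assoc, mul_inv_cancel_right])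
      simp only [e]
      have h1 := havg g
      rw [hl] at h1
      simp only at h1
      simp only [hFdef]
      rw [h1]
      have hnn : (l g : ℂ) = ((‖(l g : ℂ)‖ : ℝ) : ℂ) := by
        rw [← h1]
        simp only [Complex.mul_conj']
        rw [show (Nat.card N : ℂ)⁻¹ * ∑ n : N, (‖ext ((n : Γ) * g)‖ : ℂ) ^ 2 =
          (((Nat.card N : ℝ)⁻¹ * ∑ n : N, ‖ext ((n : Γ) * g)‖ ^ 2 : ℝ) : ℂ) by push_cast; rfl]
        rw [Complex.norm_real, Real.norm_eq_abs, abs_of_nonneg (by positivity)]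
      rw [hnn, Complex.norm_eq_one_of_pow_eq_one (n := Nat.card Γ) ?_ Nat.card_pos.ne']
      · simp
      · rw [← Units.val_pow_eq_pow_val, ← map_pow, pow_card_eq_one', map_one, Units.val_one]
    let C : Subgroup Γ := N ⊓ Subgroup.centralizer ({g} : Set Γ)
    haveI := Fintype.ofFinite C
    have hmemC : ∀ e, ι e ∈ C ↔ ρ c e.v = e.v := by
      intro e
      constructor
      · intro h
        have h1 := Subgroup.mem_centralizer_singleton_iff.mp h.2
        have h2 := congrArg (fun x : Γ => x.left.v) h1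
        change (e.v + ρ 1 0 : A) = 0 + ρ c e.v at h2
        simpa using h2.symm
      · intro h
        exact ⟨⟨e, rfl⟩, Subgroup.mem_centralizer_singleton_iff.mpr (hcomm c e h).symm.eq⟩
    have hord : (orderOf g).Coprime (Nat.card N) := by
      refine (Nat.Coprime.coprime_dvd_right ?_ hcop).symm
      exact (orderOf_map_dvd κ c).trans (orderOf_dvd_natCard c)
    have hav := OddChar.coset_average N g (Subgroup.normalizer_eq_top_iff.mpr hN ▸
      Subgroup.mem_top g) hord C rfl F hFc
    rw [havg1] at hav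
    let eC : {x : A // ρ c x = x} × ZMod p ≃ C := Equiv.ofBijective
      (fun x => ⟨ι ⟨x.1.1, x.2⟩, (hmemC _).mpr x.1.2⟩) ⟨fun x y h => by
        have := SemidirectProduct.inl_injective (congrArg Subtype.val h)
        exact Prod.ext (Subtype.ext (congrArg Heis.v this)) (congrArg Heis.z this),
      fun y => by
        obtain ⟨e, he⟩ := y.2.1
        exact ⟨(⟨e.v, (hmemC e).mp (he ▸ y.2)⟩, e.z), Subtype.ext he⟩⟩
    haveI : Fintype {x : A // ρ c x = x} := Fintype.ofFinite _
    rw [← Fintype.sum_equiv eC (fun x => F (g * (eC x : Γ))) _ (fun x => rfl),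
      Fintype.sum_prod_type, Finset.sum_eq_single (⟨0, map_zero _⟩ : {x : A // ρ c x = x}),
      ← Nat.card_congr eC, Nat.card_prod, Nat.card_zmod] at hav
    · have e0 : ∀ t, F (g * (eC (⟨0, map_zero _⟩, t) : Γ)) = θ c * conj (θ c) := by
        intro t
        show F (g * ι ⟨0, t⟩) = _
        rw [← (Subgroup.mem_center_iff.mp (hcen t) g).symm]
        simp only [hFdef, hcentral, map_mul]
        have h4 : ψ t * conj (ψ t) = 1 := by rw [Complex.mul_conj', AddChar.norm_apply]; simp
        linear_combination (θ c * conj (θ c)) * h4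
      simp only [e0, Finset.sum_const, Finset.card_univ, ZMod.card, nsmul_eq_mul,
        Nat.cast_mul] at hav
      rw [hcard]
      have h0 : (Nat.card {x : A // ρ c x = x} : ℂ) ≠ 0 := by
        haveI : Nonempty {x : A // ρ c x = x} := ⟨⟨0, map_zero _⟩⟩
        exact Nat.cast_ne_zero.mpr Nat.card_pos.ne'
      have h1 : (p : ℂ) ≠ 0 := Nat.cast_ne_zero.mpr hp.ne_zero
      field_simp at hav
      linear_combination -hav
    · intro x _ hx
      refine Finset.sum_eq_zero fun t _ => ?_
      show F (g * ι ⟨x.1, t⟩) = 0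
      rw [(hcomm c ⟨x.1, t⟩ x.2).eq]
      simp only [hFdef, hvan c ⟨x.1, t⟩ x.2 fun h => hx (Subtype.ext h), zero_mul]
    · intro h
      exact absurd (Finset.mem_univ _) h
  refine ⟨θ, IC.of_isCharacter hp.ne_zero (Chars.isCharacter_comp hextc κ), hnorm, fun c => ?_⟩
  -- divisibility
  let F : Submodule (ZMod p) A := fixIn ρ ⊤ c
  let bF : F →ₗ[ZMod p] F →ₗ[ZMod p] ZMod p := b.domRestrict₁₂ F F
  let j : Heis bF →* Heis b :=
    { toFun := fun e => ⟨(e.v : A), e.z⟩
      map_one' := rfl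
      map_mul' := fun e f => rfl }
  have hndF : ∀ u : F, (∀ w : F, bF w u - bF u w = 0) → u = 0 := by
    intro u hu
    by_contra hu0
    obtain ⟨y, hy, hy1⟩ := hfnd c u (mem_fixIn.mp u.2).2 fun h => hu0 (Subtype.ext h)
    have := hu ⟨y, mem_fixIn.mpr ⟨Submodule.mem_top, hy⟩⟩
    simp only [bF, LinearMap.domRestrict₁₂_apply] at this
    rw [hy1] at this
    exact one_ne_zero this
  have hcommF : ∀ (d : Subgroup.zpowers c) (e : Heis bF),
      Commute (((κ.comp (Subgroup.zpowers c).subtype)) d) ((ι.comp j) e) := by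
    rintro ⟨d, hd⟩ e
    obtain ⟨i, rfl⟩ := Subgroup.mem_zpowers_iff.mp hd
    simp only [MonoidHom.comp_apply, Subgroup.coe_subtype, map_zpow]
    exact (hcomm c (j e) (mem_fixIn.mp e.v.2).2).zpow_left i
  let Φ0 : Subgroup.zpowers c × Heis bF →* Γ := MonoidHom.noncommCoprod _ _ hcommF
  haveI := Fintype.ofFinite (Heis bF)
  haveI := Fintype.ofFinite (Subgroup.zpowers c × Heis bF)
  let gc : Subgroup.zpowers c := ⟨c, Subgroup.mem_zpowers c⟩
  let f : Heis bF → ℂ := fun e => ext (κ c * ι (j e))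
  have hf : ∀ e, f e = ext (Φ0 (gc, e)) := fun e => rfl
  have hfclass : IsClassFunction (Heis bF) f := by
    intro x h
    have := Chars.isCharacter_conj_apply (Chars.isCharacter_comp hextc Φ0) (gc, x) (1, h)
    rw [hf, hf]
    simpa using this
  have hint : ∀ Φ : Heis bF → ℂ, IsCharacter (Heis bF) Φ → IsIntegral ℤ (classInner f Φ) := by
    intro Φ hΦ
    obtain ⟨m, -, hm⟩ := Chars.exists_eq_sum_nsmul (Chars.isCharacter_comp hextc Φ0)
    have e : f = ∑ Ψ : IrrCharacter (Subgroup.zpowers c × Heis bF), (m Ψ : ℂ) •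
        ((Ψ.1 (gc, 1) / Ψ.1 1) • fun e : Heis bF => Ψ.1 ((1 : Subgroup.zpowers c), e)) := by
      funext e
      rw [hf, Finset.sum_apply]
      have := congrFun hm (gc, e)
      simp only [Function.comp_apply, Finset.sum_apply, Pi.smul_apply] at this
      rw [this]
      refine Finset.sum_congr rfl fun Ψ _ => ?_
      have hz : (gc, (1 : Heis bF)) ∈ Subgroup.center (Subgroup.zpowers c × Heis bF) := by
        refine Subgroup.mem_center_iff.mpr fun x => Prod.ext ?_ (by simp)
        exact Subtype.ext ((Subgroup.mem_zpowers_iff.mp x.1.2).elim fun i hi => by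
          show (x.1 : K) * c = c * x.1
          rw [← hi]; exact (Commute.self_zpow c i).symm.eq)
      have h1 := Chars2.central_mul Ψ.2 hz ((1 : Subgroup.zpowers c), e)
      rw [show (gc, (1 : Heis bF)) * ((1 : Subgroup.zpowers c), e) = (gc, e) by simp] at h1
      rw [h1, nsmul_eq_mul]
      simp only [Pi.smul_apply, smul_eq_mul]
      ring
    rw [e, Chars.classInner_sum_left]
    refine IsIntegral.sum _ fun Ψ _ => ?_
    rw [Chars.classInner_smul_left, Chars.classInner_smul_left]
    obtain ⟨k, hk⟩ := Chars.exists_classInner_eq_nat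
      (Chars.isCharacter_comp (Chars.irr_isCharacter Ψ) (MonoidHom.inr (Subgroup.zpowers c) (Heis bF))) hΦ
    refine (isIntegral_natCast _).mul (IsIntegral.mul ?_ ?_)
    · have hz : ∀ n : ℕ, Ψ.1 ((gc, (1 : Heis bF)) ^ n) / Ψ.1 1 =
          (Ψ.1 (gc, 1) / Ψ.1 1) ^ n := by
        intro n
        have hΨ1 := Chars.irr_apply_one_ne_zero Ψ.2
        induction n with
        | zero => rw [pow_zero, pow_zero, div_self hΨ1]
        | succ n ih =>
          have hzc : (gc, (1 : Heis bF)) ∈ Subgroup.center (Subgroup.zpowers c × Heis bF) := by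
            refine Subgroup.mem_center_iff.mpr fun x => Prod.ext ?_ (by simp)
            exact Subtype.ext ((Subgroup.mem_zpowers_iff.mp x.1.2).elim fun i hi => by
              show (x.1 : K) * c = c * x.1
              rw [← hi]; exact (Commute.self_zpow c i).symm.eq)
          rw [pow_succ', Chars2.central_mul Ψ.2 hzc, pow_succ', ← ih]
          ring
      refine IsIntegral.of_pow (Nat.card_pos (α := Subgroup.zpowers c × Heis bF)) ?_
      rw [← hz, pow_card_eq_one', div_self (Chars.irr_apply_one_ne_zero Ψ.2)]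
      exact isIntegral_one
    · have h2 : classInner (fun e : Heis bF => Ψ.1 ((1 : Subgroup.zpowers c), e)) Φ = k := hk
      rw [h2]; exact isIntegral_natCast k
  have hf0 : f 1 = θ c := by
    show ext (κ c * ι (j 1)) = ext (κ c)
    rw [map_one, map_one, mul_one]
  have hθ0 : θ c ≠ 0 := by
    intro h
    have := hnorm c
    rw [h, zero_mul] at this
    exact card_fixIn_ne ρ ⊤ c this.symm
  obtain ⟨Φ, hΦne⟩ : ∃ Φ : IrrCharacter (Heis bF), classInner f (Φ : Heis bF → ℂ) ≠ 0 := by
    by_contra h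
    push Not at h
    refine hθ0 ?_
    rw [← hf0, Chars.eq_sum_classInner hfclass]
    simp [h]
  obtain ⟨ν, hν⟩ := Heis.exists_central_addChar Φ.2
  have hΦ1c := Chars.irr_apply_one_conj (Chars.irr_isCharacter Φ)
  have hinner : (Nat.card (Heis bF) : ℂ) * classInner f (Φ : Heis bF → ℂ) =
      θ c * (Φ : Heis bF → ℂ) 1 * ∑ t, (ψ * ν⁻¹) t := by
    rw [Chars.classInner_def, ← mul_assoc, mul_inv_cancel₀ Chars.card_ne_zero, one_mul]
    haveI := Fintype.ofFinite F
    rw [Fintype.sum_equiv Heis.equivProd (fun e => f e * conj ((Φ : Heis bF → ℂ) e))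
      (fun x => f ⟨x.1, x.2⟩ * conj ((Φ : Heis bF → ℂ) ⟨x.1, x.2⟩)) (fun e => rfl),
      Fintype.sum_prod_type, Finset.sum_eq_single (0 : F)]
    · rw [Finset.mul_sum]
      refine Finset.sum_congr rfl fun t _ => ?_
      have h1 := hν t 1
      rw [mul_one] at h1
      show ext (κ c * ι ⟨((0 : F) : A), t⟩) * conj ((Φ : Heis bF → ℂ) ⟨0, t⟩) = _
      rw [ZeroMemClass.coe_zero, ← (Subgroup.mem_center_iff.mp (hcen t) (κ c)).symm, hcentral, h1,
        map_mul, hΦ1c, AddChar.mul_apply, AddChar.inv_apply']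
      rw [Complex.inv_eq_conj (AddChar.norm_apply ν t)]
      ring
    · intro x _ hx
      refine Finset.sum_eq_zero fun t _ => ?_
      have hxc : ρ c (x : A) = x := (mem_fixIn.mp x.2).2
      show ext (κ c * ι ⟨(x : A), t⟩) * _ = 0
      rw [(hcomm c ⟨x, t⟩ hxc).eq, hvan c ⟨x, t⟩ hxc fun h => hx (Subtype.ext h), zero_mul]
    · intro h
      exact absurd (Finset.mem_univ _) h
  have hsum : ψ * ν⁻¹ = 0 := by
    rw [← AddChar.sum_ne_zero_iff_eq_zero]
    intro h
    rw [h, mul_zero] at hinner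
    exact hΦne ((mul_eq_zero.mp hinner).resolve_left Chars.card_ne_zero)
  have hν1 : ν 1 ≠ 1 := by
    intro h
    have h1 := congrArg (fun χ : AddChar (ZMod p) ℂ => χ 1) hsum
    simp only [AddChar.mul_apply, AddChar.inv_apply', h, inv_one, mul_one,
      AddChar.zero_apply] at h1
    exact hne h1
  have hΦsq := Heis.apply_one_sq hndF Φ.2 hν hν1
  rw [hsum] at hinner
  simp only [AddChar.zero_apply, Finset.sum_const, Finset.card_univ, ZMod.card, nsmul_eq_mul,
    mul_one, Heis.card, Nat.cast_mul] at hinner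
  refine ⟨classInner f (Φ : Heis bF → ℂ) ^ 4, (hint _ (Chars.irr_isCharacter Φ)).pow 4, ?_⟩
  have hp0 : (p : ℂ) ≠ 0 := Nat.cast_ne_zero.mpr hp.ne_zero
  have h2 : (Nat.card F : ℂ) * classInner f (Φ : Heis bF → ℂ) = θ c * (Φ : Heis bF → ℂ) 1 :=
    mul_right_cancel₀ hp0 (by linear_combination hinner)
  have hF0 : (Nat.card F : ℂ) ≠ 0 := card_fixIn_ne ρ ⊤ c
  refine mul_left_cancel₀ (pow_ne_zero 2 hF0) ?_
  show (Nat.card F : ℂ) ^ 2 * θ c ^ 4 = (Nat.card F : ℂ) ^ 2 * (_ * (Nat.card F : ℂ) ^ 2)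
  rw [← hΦsq]
  calc ((Φ : Heis bF → ℂ) 1 * (Φ : Heis bF → ℂ) 1) ^ 2 * θ c ^ 4
      = (θ c * (Φ : Heis bF → ℂ) 1) ^ 4 := by ring
    _ = _ := by rw [← h2, hΦsq]; ring

/-- A submodule with a nondegenerate invariant alternating form has an auxiliary class function. -/
theorem GoodSub.of_alt (hpK : ¬ p ∣ Nat.card K) {B : A →ₗ[ZMod p] A →ₗ[ZMod p] ZMod p}
    (halt : ∀ x, B x x = 0) (hB : ∀ c x y, B (ρ c x) (ρ c y) = B x y)
    {S : Submodule (ZMod p) A} (hS : Inv ρ S)
    (hnd : ∀ u ∈ S, (∀ w ∈ S, B u w = 0) → u = 0) : GoodSub ρ S := by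
  classical
  let ρS : Representation (ZMod p) K S :=
    { toFun := fun c => (ρ c).restrict (hS c)
      map_one' := LinearMap.ext fun x => Subtype.ext (rep_one_apply ρ x)
      map_mul' := fun c d => LinearMap.ext fun x => Subtype.ext (rep_mul ρ c d x) }
  let e := Module.finBasis (ZMod p) S
  let BS : S →ₗ[ZMod p] S →ₗ[ZMod p] ZMod p := B.domRestrict₁₂ S S
  let b0 : S →ₗ[ZMod p] S →ₗ[ZMod p] ZMod p :=
    e.constr (ZMod p) fun i => e.constr (ZMod p) fun j => if i < j then BS (e i) (e j) else 0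
  have hb0 : b0 - b0.flip = BS := by
    refine e.ext fun i => e.ext fun j => ?_
    simp only [LinearMap.sub_apply, LinearMap.flip_apply, b0, Module.Basis.constr_basis]
    have hsw : BS (e j) (e i) = -BS (e i) (e j) := by
      have h := halt ((e i : A) + e j)
      simp only [map_add, LinearMap.add_apply, halt, zero_add, add_zero] at h
      simp only [BS, LinearMap.domRestrict₁₂_apply]
      linear_combination h
    rcases lt_trichotomy i j with h | h | h
    · rw [if_pos h, if_neg h.not_gt, sub_zero]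
    · subst h
      rw [if_neg (lt_irrefl _), sub_zero]
      exact (halt _).symm
    · rw [if_neg h.not_gt, if_pos h, hsw, sub_neg_eq_add, zero_add]
  have hK0 : (Fintype.card K : ZMod p) ≠ 0 := by
    rw [Ne, ZMod.natCast_eq_zero_iff, ← Nat.card_eq_fintype_card]; exact hpK
  let b : S →ₗ[ZMod p] S →ₗ[ZMod p] ZMod p :=
    (Fintype.card K : ZMod p)⁻¹ • ∑ k : K, b0.compl₁₂ (ρS k) (ρS k)
  have hb : ∀ c x y, b (ρS c x) (ρS c y) = b x y := by
    intro c x y
    simp only [b, LinearMap.smul_apply, LinearMap.coe_sum, Finset.sum_apply,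
      LinearMap.compl₁₂_apply, ← rep_mul]
    congr 1
    exact Fintype.sum_equiv (Equiv.mulRight c) _ _ fun k => rfl
  have hbc : ∀ x y, b x y - b y x = B x y := by
    intro x y
    simp only [b, LinearMap.smul_apply, LinearMap.coe_sum, Finset.sum_apply,
      LinearMap.compl₁₂_apply, ← smul_sub, ← Finset.sum_sub_distrib]
    have h1 : ∀ k, b0 (ρS k x) (ρS k y) - b0 (ρS k y) (ρS k x) = B x y := fun k => by
      have := congrArg (fun f : S →ₗ[ZMod p] S →ₗ[ZMod p] ZMod p => f (ρS k x) (ρS k y)) hb0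
      simp only [LinearMap.sub_apply, LinearMap.flip_apply] at this
      rw [this]
      exact hB k x y
    simp only [h1, Finset.sum_const, Finset.card_univ, nsmul_eq_mul, smul_eq_mul]
    rw [inv_mul_cancel_left₀ hK0]
  obtain ⟨θ, hθ, hn, hf⟩ := exists_weil_theta ρS hpK hb fun u hu => Subtype.ext (hnd u u.2 fun w hw => by
    have := hu ⟨w, hw⟩
    rw [← neg_sub, hbc, neg_eq_zero] at this
    exact this)
  have hc : ∀ c, Nat.card (fixIn ρS ⊤ c) = Nat.card (fixIn ρ S c) := fun c =>
    Nat.card_congr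
      { toFun := fun u => ⟨(u.1 : A), mem_fixIn.mpr ⟨u.1.2, congrArg Subtype.val (mem_fixIn.mp u.2).2⟩⟩
        invFun := fun u => ⟨⟨u.1, (mem_fixIn.mp u.2).1⟩,
          mem_fixIn.mpr ⟨Submodule.mem_top, Subtype.ext (mem_fixIn.mp u.2).2⟩⟩
        left_inv := fun u => rfl
        right_inv := fun u => rfl }
  simp only [hc] at hn hf
  exact GoodSub.of_theta ρ hpK hS hθ hn hf

end Cfsg.Agent.Knorr2
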