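/-
A self-dual coprime module contains a faithful invariant submodule with an auxiliary class function.
-/
import Cfsg.Agent.Knorr2.Gauss
import Cfsg.Agent.Knorr2.Weil
import Mathlib.LinearAlgebra.Dual.Lemmas
import Mathlib.LinearAlgebra.Projection
import Mathlib.Data.Finite.Prod

set_option autoImplicit false
set_option linter.unusedSectionVars false
set_option linter.style.haveILetI false

namespace Cfsg.Agent.Knorr2

open Cfsg Cfsg.Agent

universe u v

variable {K : Type u} [Group K] [Fintype K] {p : ℕ} [Fact p.Prime]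
  {A : Type v} [AddCommGroup A] [Module (ZMod p) A] [Finite A]
  (ρ : Representation (ZMod p) K A)

theorem exists_equivariant_proj (hpK : ¬ p ∣ Nat.card K) {S : Submodule (ZMod p) A}
    (hS : Inv ρ S) : ∃ P : A →ₗ[ZMod p] A, (∀ c x, P (ρ c x) = ρ c (P x)) ∧ (∀ x, P x ∈ S) ∧
      ∀ x ∈ S, P x = x := by
  obtain ⟨R, hR⟩ := Submodule.exists_isCompl S
  let P0 : A →ₗ[ZMod p] A := S.subtype ∘ₗ S.projectionOnto R hR
  have hK0 : (Fintype.card K : ZMod p) ≠ 0 := by
    rw [Ne, ZMod.natCast_eq_zero_iff, ← Nat.card_eq_fintype_card]; exact hpK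
  refine ⟨(Fintype.card K : ZMod p)⁻¹ • ∑ k : K, ρ k⁻¹ ∘ₗ P0 ∘ₗ ρ k, fun c x => ?_, fun x => ?_,
    fun x hx => ?_⟩
  · simp only [LinearMap.smul_apply, LinearMap.coe_sum, Finset.sum_apply, LinearMap.comp_apply,
      map_smul, map_sum]
    congr 1
    refine Fintype.sum_equiv (Equiv.mulRight c) _ _ fun k => ?_
    simp only [Equiv.coe_mulRight, ← rep_mul, mul_inv_rev, mul_inv_cancel_left]
  · simp only [LinearMap.smul_apply, LinearMap.coe_sum, Finset.sum_apply, LinearMap.comp_apply]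
    exact Submodule.smul_mem _ _ (sum_mem fun k _ => hS _ _ (Submodule.coe_mem _))
  · simp only [LinearMap.smul_apply, LinearMap.coe_sum, Finset.sum_apply, LinearMap.comp_apply]
    have h1 : ∀ k, ρ k⁻¹ (P0 (ρ k x)) = x := fun k => by
      have : P0 (ρ k x) = ρ k x :=
        congrArg Subtype.val (Submodule.projectionOnto_apply_left hR ⟨ρ k x, hS k x hx⟩)
      rw [this, ← rep_mul, inv_mul_cancel, rep_one_apply]
    simp only [h1, Finset.sum_const, Finset.card_univ]
    rw [← Nat.cast_smul_eq_nsmul (ZMod p), smul_smul, inv_mul_cancel₀ hK0, one_smul]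

variable (β : A →ₗ[ZMod p] A →ₗ[ZMod p] ZMod p)

/-- The elements of a submodule orthogonal to another one. -/
def radIn (W T : Submodule (ZMod p) A) : Submodule (ZMod p) A where
  carrier := {x | x ∈ W ∧ ∀ y ∈ T, β x y = 0}
  zero_mem' := ⟨zero_mem _, fun y _ => by simp⟩
  add_mem' := fun hx hy => ⟨add_mem hx.1 hy.1, fun z hz => by simp [hx.2 z hz, hy.2 z hz]⟩
  smul_mem' := fun a x hx => ⟨Submodule.smul_mem _ a hx.1, fun z hz => by simp [hx.2 z hz]⟩

theorem radIn_inv (hβ : ∀ c x y, β (ρ c x) (ρ c y) = β x y) {W T : Submodule (ZMod p) A}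
    (hW : Inv ρ W) (hT : Inv ρ T) : Inv ρ (radIn β W T) := by
  rintro c x ⟨hx, hx'⟩
  refine ⟨hW c x hx, fun y hy => ?_⟩
  rw [← rep_inv_apply ρ c y, hβ]
  exact hx' _ (hT _ _ hy)

theorem zmod_two_eq_one : ∀ t : ZMod 2, t ≠ 0 → t = 1 := by decide

/-- A minimal invariant submodule carrying a nondegenerate invariant form has an auxiliary class
function, unless it has at most two elements. -/
theorem goodSub_of_simple (hpK : ¬ p ∣ Nat.card K) (hβ : ∀ c x y, β (ρ c x) (ρ c y) = β x y)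
    {W : Submodule (ZMod p) A} (hW : Inv ρ W)
    (hsimple : ∀ Z, Z ≤ W → Inv ρ Z → Z = ⊥ ∨ Z = W)
    (hnd : ∀ u ∈ W, (∀ w ∈ W, β u w = 0) → u = 0)
    (hmoved : ∀ x : A, x ∈ W → x ≠ 0 → ∃ c, ρ c x ≠ x) : GoodSub ρ W := by
  classical
  have hflip : ∀ c x y, (β + β.flip) (ρ c x) (ρ c y) = (β + β.flip) x y := fun c x y => by
    simp [hβ]
  by_cases hs : ∀ x ∈ W, ∀ y ∈ W, β x y + β y x = 0
  · by_cases hp2 : p = 2
    · have h2 : (2 : ZMod p) = 0 := by
        subst hp2; exact ZMod.natCast_self 2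
      have hf : ∀ x ∈ W, ∀ y ∈ W, β (x + y) (x + y) = β x x + β y y := fun x hx y hy => by
        simp only [map_add, LinearMap.add_apply]
        linear_combination hs x hx y hy
      let Z : Submodule (ZMod p) A :=
        { carrier := {x | x ∈ W ∧ β x x = 0}
          zero_mem' := ⟨zero_mem _, by simp⟩
          add_mem' := fun hx hy => ⟨add_mem hx.1 hy.1, by rw [hf _ hx.1 _ hy.1, hx.2, hy.2, add_zero]⟩
          smul_mem' := fun a x hx => ⟨Submodule.smul_mem _ a hx.1, by simp [hx.2]⟩ }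
      rcases hsimple Z (fun x hx => hx.1) (fun c x hx => ⟨hW c x hx.1, (hβ c x x).trans hx.2⟩)
        with h | h
      · refine (?_ : W = ⊥) ▸ GoodSub.bot ρ (Fact.out : p.Prime).ne_zero
        by_contra hne
        obtain ⟨x, hx, hx0⟩ := (Submodule.ne_bot_iff W).mp hne
        obtain ⟨c, hc⟩ := hmoved x hx hx0
        have hval : ∀ t : ZMod p, t ≠ 0 → t = 1 := by subst hp2; exact zmod_two_eq_one
        have hone : ∀ u ∈ W, u ≠ 0 → β u u = 1 := fun u hu hu0 => hval _ fun h0 => by
          have hm : u ∈ Z := ⟨hu, h0⟩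
          rw [h] at hm
          exact hu0 ((Submodule.mem_bot _).mp hm)
        have hz : ρ c x - x ∈ Z := by
          refine ⟨sub_mem (hW c x hx) hx, ?_⟩
          simp only [map_sub, LinearMap.sub_apply]
          linear_combination hone x hx hx0 + hβ c x x + hone x hx hx0 - hs _ (hW c x hx) x hx + h2
        exact hc (sub_eq_zero.mp ((Submodule.mem_bot _).mp (h ▸ hz)))
      · obtain ⟨P, hP, hPm, hPid⟩ := exists_equivariant_proj ρ hpK hW
        refine GoodSub.of_alt ρ hpK (B := β.compl₁₂ P P) (fun x => ?_) (fun c x y => ?_) hW ?_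
        · have : P x ∈ Z := h.symm ▸ hPm x
          exact this.2
        · simp [hP, hβ]
        · intro u hu hu'
          refine hnd u hu fun w hw => ?_
          have := hu' w hw
          simpa [hPid u hu, hPid w hw] using this
    · refine GoodSub.of_alt ρ hpK (B := β - β.flip) (fun x => by simp) (fun c x y => by simp [hβ])
        hW fun u hu hu' => hnd u hu fun w hw => ?_
      have h1 := hu' w hw
      simp only [LinearMap.sub_apply, LinearMap.flip_apply] at h1
      have h2 : (2 : ZMod p) ≠ 0 := Ring.two_ne_zero (by rwa [ZMod.ringChar_zmod_n])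
      have h3 : (2 : ZMod p) * β u w = 0 := by linear_combination h1 + hs u hu w hw
      exact (mul_eq_zero.mp h3).resolve_left h2
  · have hnds : ∀ u ∈ W, (∀ w ∈ W, (β + β.flip) u w = 0) → u = 0 := by
      intro u hu hu'
      rcases hsimple (radIn (β + β.flip) W W) (fun x hx => hx.1) (radIn_inv ρ _ hflip hW hW)
        with h | h
      · have hm : u ∈ radIn (β + β.flip) W W := ⟨hu, hu'⟩
        rw [h] at hm
        exact (Submodule.mem_bot _).mp hm
      · refine absurd (fun x hx y hy => ?_) hs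
        have hx' : x ∈ radIn (β + β.flip) W W := h.symm ▸ hx
        simpa using hx'.2 y hy
    by_cases hp2 : p = 2
    · refine GoodSub.of_alt ρ hpK (fun x => ?_) hflip hW hnds
      have h2 : (2 : ZMod p) = 0 := by subst hp2; exact ZMod.natCast_self 2
      simp only [LinearMap.add_apply, LinearMap.flip_apply]
      linear_combination (β x x) * h2
    · exact GoodSub.of_symm ρ hp2 hpK (fun x y => by simp [add_comm]) hflip hW hnds

/-- A faithful part with an auxiliary class function. -/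
theorem exists_goodSub_faithful (hpK : ¬ p ∣ Nat.card K)
    (hβ : ∀ c x y, β (ρ c x) (ρ c y) = β x y) (hnd : ∀ u, (∀ w, β u w = 0) → u = 0) :
    ∃ S, Inv ρ S ∧ GoodSub ρ S ∧ ∀ c, (∀ u ∈ S, ρ c u = u) → ∀ u, ρ c u = u := by
  classical
  haveI : Finite (Submodule (ZMod p) A) :=
    Finite.of_injective (fun S => (S : Set A)) SetLike.coe_injective
  obtain ⟨S, ⟨hS, hgood⟩, hmax⟩ := (Set.toFinite {S | Inv ρ S ∧ GoodSub ρ S}).exists_maximal
    ⟨⊥, fun c u hu => by rw [(Submodule.mem_bot _).mp hu, map_zero]; exact zero_mem _,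
      GoodSub.bot ρ (Fact.out : p.Prime).ne_zero⟩
  refine ⟨S, hS, hgood, ?_⟩
  by_contra hbad
  push Not at hbad
  obtain ⟨c0, hc0, u0, hu0⟩ := hbad
  let Fx : Submodule (ZMod p) A :=
    { carrier := {x | ∀ n, (∀ u ∈ S, ρ n u = u) → ρ n x = x}
      zero_mem' := fun n _ => map_zero _
      add_mem' := fun hx hy n hn => by rw [map_add, hx n hn, hy n hn]
      smul_mem' := fun a x hx n hn => by rw [map_smul, hx n hn] }
  have hFx : Inv ρ Fx := by
    intro c x hx n hn
    have h1 := hx (c⁻¹ * n * c) fun u hu => by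
      rw [rep_mul, rep_mul, hn _ (hS c u hu), ← rep_mul, inv_mul_cancel, rep_one_apply]
    rw [rep_mul, rep_mul] at h1
    have h2 := congrArg (ρ c) h1
    rwa [rep_inv_apply] at h2
  obtain ⟨PF, hPF, hPFm, hPFid⟩ := exists_equivariant_proj ρ hpK hFx
  let R : Submodule (ZMod p) A := LinearMap.ker PF
  have hR : Inv ρ R := fun c x hx => by
    rw [LinearMap.mem_ker] at hx ⊢
    rw [hPF, hx, map_zero]
  have hRne : R ≠ ⊥ := by
    intro h
    refine hu0 ?_
    have h1 : u0 - PF u0 ∈ R := by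
      rw [LinearMap.mem_ker, map_sub, hPFid _ (hPFm u0), sub_self]
    rw [h, Submodule.mem_bot, sub_eq_zero] at h1
    exact (h1 ▸ hPFm u0 : u0 ∈ Fx) c0 hc0
  obtain ⟨W, ⟨hWR, hW, hWne⟩, hWmin⟩ := (Set.toFinite
    {W | W ≤ R ∧ Inv ρ W ∧ W ≠ ⊥}).exists_minimal ⟨R, le_rfl, hR, hRne⟩
  have hWF : ∀ x ∈ W, x ∈ Fx → x = 0 := fun x hx hxF => by
    rw [← hPFid x hxF]; exact hWR hx
  have hsimple : ∀ Z, Z ≤ W → Inv ρ Z → Z = ⊥ ∨ Z = W := fun Z hZ hZi =>
    (eq_or_ne Z ⊥).imp_right fun h => le_antisymm hZ (hWmin ⟨hZ.trans hWR, hZi, h⟩ hZ)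
  have key : ∀ T, Inv ρ T → GoodSub ρ T → Disjoint S T → W ≤ T → False := by
    intro T hT hTg hd hWT
    have hinv : Inv ρ (S ⊔ T) := fun c x hx => by
      obtain ⟨a, ha, b, hb, rfl⟩ := Submodule.mem_sup.mp hx
      rw [map_add]
      exact Submodule.add_mem_sup (hS c a ha) (hT c b hb)
    have hle : T ≤ S := le_sup_right.trans (hmax ⟨hinv, GoodSub.sup ρ hS hT hd hgood hTg⟩ le_sup_left)
    exact hWne (eq_bot_iff.mpr fun x hx => Submodule.disjoint_def.mp hd x (hle (hWT hx)) (hWT hx) ▸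
      zero_mem _)
  have hSfix : ∀ x ∈ S, x ∈ Fx := fun x hx n hn => hn x hx
  rcases hsimple (radIn β W W) (fun x hx => hx.1) (radIn_inv ρ β hβ hW hW) with hrad | hrad
  · refine key W hW ?_ (Submodule.disjoint_def.mpr fun x hxS hxW => hWF x hxW (hSfix x hxS)) le_rfl
    refine goodSub_of_simple ρ β hpK hβ hW hsimple (fun u hu hu' => ?_) fun x hx hx0 => ?_
    · have hm : u ∈ radIn β W W := ⟨hu, hu'⟩
      rw [hrad] at hm
      exact (Submodule.mem_bot _).mp hm
    · by_contra hcon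
      push Not at hcon
      exact hx0 (hWF x hx fun n _ => hcon n)
  · have hiso : ∀ x ∈ W, ∀ y ∈ W, β x y = 0 := fun x hx y hy =>
      (hrad.symm ▸ hx : x ∈ radIn β W W).2 y hy
    let Wp : Submodule (ZMod p) A :=
      { carrier := {x | ∀ w ∈ W, β w x = 0}
        zero_mem' := fun w _ => map_zero _
        add_mem' := fun hx hy w hw => by rw [map_add, hx w hw, hy w hw, add_zero]
        smul_mem' := fun a x hx w hw => by rw [map_smul, hx w hw, smul_zero] }
    have hWp : Inv ρ Wp := fun c x hx w hw => by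
      rw [← rep_inv_apply ρ c w, hβ]
      exact hx _ (hW _ _ hw)
    obtain ⟨Q, hQ, hQm, hQid⟩ := exists_equivariant_proj ρ hpK hWp
    let P : A →ₗ[ZMod p] A := LinearMap.id - Q
    have hPapp : ∀ x, P x = x - Q x := fun x => rfl
    have hP : ∀ c x, P (ρ c x) = ρ c (P x) := fun c x => by rw [hPapp, hPapp, hQ, map_sub]
    have hP0 : ∀ x ∈ Wp, P x = 0 := fun x hx => by rw [hPapp, hQid x hx, sub_self]
    have hPP : ∀ x, P (P x) = P x := fun x => by
      conv_lhs => rw [hPapp, hPapp, map_sub, hQid _ (hQm x), sub_self, sub_zero]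
      rfl
    let W' : Submodule (ZMod p) A := LinearMap.range P
    have hW'id : ∀ x ∈ W', P x = x := by rintro _ ⟨y, rfl⟩; exact hPP y
    have hW' : Inv ρ W' := by rintro c _ ⟨y, rfl⟩; exact ⟨ρ c y, hP c y⟩
    have hWWp : ∀ x ∈ W, x ∈ Wp := fun x hx w hw => hiso w hw x hx
    have hd0 : ∀ x ∈ W', x ∈ Wp → x = 0 := fun x hx hx' => (hW'id x hx).symm.trans (hP0 x hx')
    have hT : Inv ρ (W ⊔ W') := fun c x hx => by
      obtain ⟨a, ha, b, hb, rfl⟩ := Submodule.mem_sup.mp hx
      rw [map_add]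
      exact Submodule.add_mem_sup (hW c a ha) (hW' c b hb)
    refine key (W ⊔ W') hT (GoodSub.of_alt ρ hpK (B := β.compl₂ P - (β.compl₂ P).flip)
      (fun x => by simp) (fun c x y => by simp [hP, hβ]) hT ?_) ?_ le_sup_left
    · intro u hu hu'
      obtain ⟨w, hw, w', hw', rfl⟩ := Submodule.mem_sup.mp hu
      have h1 : w' = 0 := by
        refine hd0 w' hw' fun v hv => ?_
        have := hu' v (Submodule.mem_sup_left hv)
        simpa [hP0 v (hWWp v hv), hP0 w (hWWp w hw), hW'id w' hw'] using this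
      subst h1
      rw [add_zero] at hu' ⊢
      refine hnd w fun y => ?_
      have h2 := hu' (P y) (Submodule.mem_sup_right ⟨y, rfl⟩)
      simp only [LinearMap.sub_apply, LinearMap.compl₂_apply, LinearMap.flip_apply,
        hP0 w (hWWp w hw), map_zero, sub_zero, hPP] at h2
      have h3 : y = Q y + P y := by rw [hPapp]; abel
      rw [h3, map_add, hQm y w hw, h2, add_zero]
    · refine Submodule.disjoint_def.mpr fun x hxS hxT => ?_
      obtain ⟨w, hw, w', hw', rfl⟩ := Submodule.mem_sup.mp hxT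
      have hfix : ∀ n, (∀ u ∈ S, ρ n u = u) → ρ n w = w ∧ ρ n w' = w' := by
        intro n hn
        have h0 := hn _ hxS
        rw [map_add] at h0
        have e : ρ n w - w = w' - ρ n w' := by rw [sub_eq_sub_iff_add_eq_add, h0, add_comm]
        have h1 : w' - ρ n w' = 0 := hd0 _ (sub_mem hw' (hW' n w' hw'))
          (e ▸ hWWp _ (sub_mem (hW n w hw) hw))
        exact ⟨sub_eq_zero.mp (e.trans h1), (sub_eq_zero.mp h1).symm⟩
      have hw0 : w = 0 := hWF w hw fun n hn => (hfix n hn).1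
      have hw'F : w' ∈ Fx := fun n hn => (hfix n hn).2
      rcases hsimple (radIn β W (W' ⊓ Fx)) (fun x hx => hx.1)
        (radIn_inv ρ β hβ hW fun c y hy => ⟨hW' c y hy.1, hFx c y hy.2⟩) with h | h
      · obtain ⟨v, hv, hv0⟩ := (Submodule.ne_bot_iff W).mp hWne
        obtain ⟨n, hn, hnv⟩ : ∃ n, (∀ u ∈ S, ρ n u = u) ∧ ρ n v ≠ v := by
          by_contra hcon
          push Not at hcon
          exact hv0 (hWF v hv fun n hn => hcon n hn)
        have : ρ n v - v ∈ radIn β W (W' ⊓ Fx) := ⟨sub_mem (hW n v hv) hv, fun y hy => by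
          rw [map_sub, LinearMap.sub_apply]
          conv_lhs => arg 1; rw [← hy.2 n hn, hβ]
          exact sub_self _⟩
        rw [h, Submodule.mem_bot, sub_eq_zero] at this
        exact absurd this hnv
      · rw [hw0, zero_add]
        exact hd0 w' hw' fun v hv => (h.symm ▸ hv : v ∈ radIn β W (W' ⊓ Fx)).2 w' ⟨hw', hw'F⟩

end Cfsg.Agent.Knorr2
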