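/-
Knörr's real-vector criterion for the `k(GV)` problem.
-/
import Cfsg.Agent.Knorr2.Selfdual
import Cfsg.Agent.Knorr2.Count
import Mathlib.Algebra.Module.ZMod

set_option autoImplicit false
set_option linter.unusedSectionVars false
set_option linter.style.haveILetI false

namespace Cfsg.Agent.Knorr2

open Cfsg Cfsg.Agent
open scoped ComplexConjugate

/-- The representation given by an action by additive maps. -/
def repOfFun {K : Type*} [Group K] {p : ℕ} {A : Type*} [AddCommGroup A] [Module (ZMod p) A]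
    (f : K → A → A) (hadd : ∀ c x y, f c (x + y) = f c x + f c y) (h1 : ∀ x, f 1 x = x)
    (hmul : ∀ c d x, f (c * d) x = f c (f d x)) : Representation (ZMod p) K A where
  toFun c := AddMonoidHom.toZModLinearMap p (AddMonoidHom.mk' (f c) (hadd c))
  map_one' := LinearMap.ext fun x => h1 x
  map_mul' c d := LinearMap.ext fun x => hmul c d x

/-- The bilinear form given by a biadditive function. -/
def formOfFun {p : ℕ} {A : Type*} [AddCommGroup A] [Module (ZMod p) A] (f : A → A → ZMod p)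
    (hl : ∀ x x' y, f (x + x') y = f x y + f x' y)
    (hr : ∀ x y y', f x (y + y') = f x y + f x y') : A →ₗ[ZMod p] A →ₗ[ZMod p] ZMod p :=
  AddMonoidHom.toZModLinearMap p (AddMonoidHom.mk'
    (fun x => AddMonoidHom.toZModLinearMap p (AddMonoidHom.mk' (f x) (hr x)))
    fun x x' => LinearMap.ext fun y => hl x x' y)

theorem card_mul_relIndex' {X : Type*} [Group X] {H K : Subgroup X} (h : H ≤ K) :
    Nat.card H * H.relIndex K = Nat.card K := by
  have := Subgroup.relIndex_mul_relIndex ⊥ H K bot_le h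
  rwa [Subgroup.relIndex_bot_left, Subgroup.relIndex_bot_left] at this

theorem card_conjClasses_le_of_real_vector {X : Type*} [Group X] [Finite X] {p : ℕ}
    [Fact p.Prime] (V : Subgroup X) [V.Normal] (hVexp : ∀ v ∈ V, v ^ p = 1)
    (hidx : ¬ p ∣ V.index) (hself : Subgroup.centralizer (V : Set X) = V) (G : Subgroup X)
    (hGV : Subgroup.IsComplement' V G) (v : X) (hv : v ∈ V) (U : Subgroup X) (hUV : U ≤ V)
    (hUinv : ∀ h ∈ G, h * v * h⁻¹ = v → ∀ u ∈ U, h * u * h⁻¹ ∈ U)
    (hUfaith : ∀ h ∈ G, h * v * h⁻¹ = v → (∀ u ∈ U, h * u * h⁻¹ = u) → h = 1)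
    (β : X → X → ZMod p)
    (hβl : ∀ u ∈ U, ∀ u' ∈ U, ∀ w ∈ U, β (u * u') w = β u w + β u' w)
    (hβr : ∀ u ∈ U, ∀ w ∈ U, ∀ w' ∈ U, β u (w * w') = β u w + β u w')
    (hβinv : ∀ h ∈ G, h * v * h⁻¹ = v → ∀ u ∈ U, ∀ w ∈ U,
      β (h * u * h⁻¹) (h * w * h⁻¹) = β u w)
    (hβnd : ∀ u ∈ U, (∀ w ∈ U, β u w = 0) → u = 1) :
    Nat.card (ConjClasses X) ≤ Nat.card V := by
  classical
  have hp := (Fact.out : p.Prime)
  have hVab : ∀ a ∈ V, ∀ b ∈ V, a * b = b * a := fun a ha b hb =>
    (Subgroup.mem_centralizer_iff.mp (hself.symm ▸ hb : b ∈ Subgroup.centralizer (V : Set X)) a ha)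
  let K : Subgroup X := G ⊓ Subgroup.centralizer ({v} : Set X)
  haveI := Fintype.ofFinite K
  have hKv : ∀ c : K, (c : X) * v * (c : X)⁻¹ = v := fun c => by
    rw [mul_inv_eq_iff_eq_mul]; exact Subgroup.mem_centralizer_singleton_iff.mp c.2.2
  letI : CommGroup U :=
    { U.toGroup with mul_comm := fun a b => Subtype.ext (hVab _ (hUV a.2) _ (hUV b.2)) }
  have : Module (ZMod p) (Additive U) := AddCommGroup.zmodModule fun x =>
    Additive.toMul.injective (Subtype.ext (by
      rw [toMul_nsmul, toMul_zero, SubmonoidClass.coe_pow, Subgroup.coe_one]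
      exact hVexp _ (hUV (Additive.toMul x).2)))
  let ρ : Representation (ZMod p) K (Additive U) := repOfFun
    (fun c x => Additive.ofMul (⟨(c : X) * (Additive.toMul x : U) * (c : X)⁻¹,
      hUinv _ c.2.1 (hKv c) _ (Additive.toMul x).2⟩ : U))
    (fun c x y => Additive.toMul.injective (Subtype.ext (by
      show (c : X) * ((Additive.toMul x : U) * (Additive.toMul y : U) : X) * (c : X)⁻¹ =
        (c : X) * (Additive.toMul x : U) * (c : X)⁻¹ * ((c : X) * (Additive.toMul y : U) * (c : X)⁻¹)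
      group)))
    (fun x => Additive.toMul.injective (Subtype.ext (by
      show ((1 : K) : X) * (Additive.toMul x : U) * ((1 : K) : X)⁻¹ = _
      simp)))
    (fun c d x => Additive.toMul.injective (Subtype.ext (by
      show ((c * d : K) : X) * (Additive.toMul x : U) * ((c * d : K) : X)⁻¹ =
        (c : X) * ((d : X) * (Additive.toMul x : U) * (d : X)⁻¹) * (c : X)⁻¹
      rw [Subgroup.coe_mul]; group)))
  let B : Additive U →ₗ[ZMod p] Additive U →ₗ[ZMod p] ZMod p := formOfFun
    (fun x y => β (Additive.toMul x : U) (Additive.toMul y : U))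
    (fun x x' y => hβl _ (Additive.toMul x).2 _ (Additive.toMul x').2 _ (Additive.toMul y).2)
    (fun x y y' => hβr _ (Additive.toMul x).2 _ (Additive.toMul y).2 _ (Additive.toMul y').2)
  have hpK : ¬ p ∣ Nat.card K := fun h => hidx (by
    rw [hGV.symm.index_eq_card]
    exact h.trans (Subgroup.card_dvd_of_le inf_le_left))
  obtain ⟨S, hS, hgood, hfaith⟩ := exists_goodSub_faithful ρ B hpK
    (fun c x y => hβinv _ c.2.1 (hKv c) _ (Additive.toMul x).2 _ (Additive.toMul y).2)
    fun x hx => Additive.toMul.injective (Subtype.ext (hβnd _ (Additive.toMul x).2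
      fun w hw => hx (Additive.ofMul (⟨w, hw⟩ : U))))
  obtain ⟨δ, hδ, hδn, hδf⟩ := hgood
  obtain ⟨M, hM, hpM⟩ := DegreeGraph.exists_isMaximal_mem p
  haveI := hM
  have hmoved : ∀ c : K, c ≠ 1 → Nat.card (fixIn ρ S c) ≠ Nat.card S := by
    intro c hc hcard
    refine hc (Subtype.ext (hUfaith _ c.2.1 (hKv c) fun u hu => ?_))
    have heq : (fixIn ρ S c : Set (Additive U)) = S :=
      Set.eq_of_subset_of_ncard_le (fun x hx => hx.1)
        (by rw [← Nat.card_coe_set_eq, ← Nat.card_coe_set_eq]; exact hcard.ge) (Set.toFinite _)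
    exact congrArg (fun x : Additive U => ((Additive.toMul x : U) : X))
      (hfaith c (fun x hx => (heq.ge hx).2) (Additive.ofMul (⟨u, hu⟩ : U)))
  -- the subgroup underlying `S`
  let Sx : Subgroup X :=
    { carrier := {x | ∃ h : x ∈ U, Additive.ofMul (⟨x, h⟩ : U) ∈ S}
      one_mem' := ⟨U.one_mem, S.zero_mem⟩
      mul_mem' := fun ha hb => ⟨U.mul_mem ha.1 hb.1, S.add_mem ha.2 hb.2⟩
      inv_mem' := fun ha => ⟨U.inv_mem ha.1, S.neg_mem ha.2⟩ }
  have hSxcard : Nat.card Sx = Nat.card S := Nat.card_congr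
    { toFun := fun x => ⟨Additive.ofMul (⟨x.1, x.2.1⟩ : U), x.2.2⟩
      invFun := fun x => ⟨((Additive.toMul x.1 : U) : X), (Additive.toMul x.1).2, x.2⟩
      left_inv := fun x => rfl
      right_inv := fun x => rfl }
  refine card_conjClasses_le_of_delta V hVexp hidx hVab G hGV v hv K inf_le_left
    (fun g hg h => ⟨hg, Subgroup.mem_centralizer_singleton_iff.mpr h⟩)
    (fun c => Subgroup.mem_centralizer_singleton_iff.mp c.2.2) M hpM δ hδ ?_ ?_ ?_
  · refine ⟨conj (δ 1), isIntegral_conj (hδ.isIntegral_apply 1), ?_⟩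
    have h := hδn 1
    rw [fixIn_one] at h
    have h0 : (Nat.card S : ℂ) ≠ 0 := Nat.cast_ne_zero.mpr Nat.card_pos.ne'
    refine mul_right_cancel₀ h0 ?_
    linear_combination h
  · intro c hc
    obtain ⟨ε, hε, he⟩ := hδf c
    obtain ⟨m, hm⟩ := card_fixIn_dvd ρ S c
    have hpm : p ∣ m := by
      obtain ⟨n, hn⟩ := card_eq_pow S
      obtain ⟨k, -, hk⟩ := (Nat.dvd_prime_pow hp).mp (Dvd.intro_left _ hm.symm |>.trans hn.dvd)
      rcases k with _ | k
      · rw [pow_zero] at hk
        exact absurd (by rw [hm, hk, mul_one]) (hmoved c hc)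
      · rw [hk]; exact dvd_pow_self p (Nat.succ_ne_zero k)
    obtain ⟨n, rfl⟩ := hpm
    have h0 : (Nat.card (fixIn ρ S c) : ℂ) ≠ 0 := card_fixIn_ne ρ S c
    have h4 : δ c ^ 4 = ε * ((p : ℂ) * n) ^ 2 := by
      refine mul_right_cancel₀ (pow_ne_zero 2 h0) ?_
      rw [he, hm]; push_cast; ring
    refine ⟨⟨δ c, hδ.isIntegral_apply c⟩, hM.isPrime.mem_of_pow_mem 4 ?_, rfl⟩
    have e : (⟨δ c, hδ.isIntegral_apply c⟩ : AlgInt) ^ 4 =
        (⟨ε, hε⟩ : AlgInt) * ((p : AlgInt) * (n : AlgInt)) ^ 2 := Subtype.ext (by simpa using h4)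
    rw [e]
    exact M.mul_mem_left _ (Ideal.pow_mem_of_mem M (M.mul_mem_right _ hpM) 2 two_pos)
  · intro c
    refine ⟨(Nat.card S : ℚ) / Nat.card (fixIn ρ S c), ?_, ?_⟩
    · have h0 : (Nat.card (fixIn ρ S c) : ℂ) ≠ 0 := card_fixIn_ne ρ S c
      push_cast
      rw [eq_div_iff h0]
      exact hδn c
    · set C : Subgroup X := V ⊓ Subgroup.centralizer ({(c : X)} : Set X) with hC
      have hle : Sx ≤ V := fun x hx => hUV hx.1
      have h1 : Nat.card S = Nat.card (fixIn ρ S c) * C.relIndex Sx := by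
        have hf : Nat.card (fixIn ρ S c) = Nat.card (C ⊓ Sx : Subgroup X) := Nat.card_congr
          { toFun := fun x => ⟨((Additive.toMul x.1 : U) : X),
              ⟨hUV (Additive.toMul x.1).2, Subgroup.mem_centralizer_singleton_iff.mpr (by
                have h2 := congrArg (fun y : Additive U => ((Additive.toMul y : U) : X))
                  (mem_fixIn.mp x.2).2
                exact (mul_inv_eq_iff_eq_mul.mp h2).symm)⟩,
              (Additive.toMul x.1).2, (mem_fixIn.mp x.2).1⟩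
            invFun := fun x => ⟨Additive.ofMul (⟨x.1, x.2.2.1⟩ : U), mem_fixIn.mpr ⟨x.2.2.2,
              Additive.toMul.injective (Subtype.ext (by
                show (c : X) * (x : X) * (c : X)⁻¹ = x
                rw [mul_inv_eq_iff_eq_mul]
                exact (Subgroup.mem_centralizer_singleton_iff.mp x.2.1.2).symm))⟩⟩
            left_inv := fun x => rfl
            right_inv := fun x => rfl }
        rw [← hSxcard, hf, ← Subgroup.inf_relIndex_right C Sx,
          card_mul_relIndex' (inf_le_right : C ⊓ Sx ≤ Sx)]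
      have h2 : Nat.card C * C.relIndex V = Nat.card V :=
        card_mul_relIndex' (inf_le_left : C ≤ V)
      have h3 : C.relIndex Sx ≤ C.relIndex V :=
        Subgroup.relIndex_le_of_le_right hle fun h => by
          rw [h, mul_zero] at h2; exact Nat.card_pos.ne' h2.symm
      have hF : (Nat.card (fixIn ρ S c) : ℚ) ≠ 0 := Nat.cast_ne_zero.mpr Nat.card_pos.ne'
      rw [h1, Nat.cast_mul, mul_div_cancel_left₀ _ hF, ← h2, Nat.cast_mul, mul_comm (Nat.card C : ℚ)]
      exact mul_le_mul_of_nonneg_right (by exact_mod_cast h3) (Nat.cast_nonneg _)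

end Cfsg.Agent.Knorr2
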